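import Mathlib
import Cfsg.Prelude.Def_KGroupFacts

/-!
# Cover presentations and stem extensions (helper28)

For a presentation `⟨β | S⟩` and words `w y` (`y : β`) in the commutator subgroup of the free
group with `w y ≡ y` modulo `S`, the *cover presentation* has the relators `⁅y, s⁆` (`s ∈ S`) and
`y⁻¹ * w y`.  Every stem extension of `⟨β | S⟩` is a homomorphic image of the cover group
(`stem_surj`); more generally the cover group maps to every group `E` with a central subgroup `Z`
in which the relators of `S` hold modulo `Z` for some elements `h y` (`cover_hom`).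
-/

set_option autoImplicit false

namespace Cfsg.Agent.Lib.Helper28.Cov

open scoped commutatorElement

variable {β : Type*}

/-- the relators of the cover presentation -/
def coverRels (S : Set (FreeGroup β)) (w : β → FreeGroup β) : Set (FreeGroup β) :=
  {r | ∃ y : β, ∃ s ∈ S, r = (⁅FreeGroup.of y, s⁆ : FreeGroup β)} ∪
    {r | ∃ y : β, r = (FreeGroup.of y)⁻¹ * w y}

theorem mem_coverRels_left (S : Set (FreeGroup β)) (w : β → FreeGroup β) (y : β)
    {s : FreeGroup β} (hs : s ∈ S) : (⁅FreeGroup.of y, s⁆ : FreeGroup β) ∈ coverRels S w := by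
  unfold coverRels
  exact Or.inl ⟨y, s, hs, rfl⟩

theorem mem_coverRels_right (S : Set (FreeGroup β)) (w : β → FreeGroup β) (y : β) :
    (FreeGroup.of y)⁻¹ * w y ∈ coverRels S w := by
  unfold coverRels
  exact Or.inr ⟨y, rfl⟩

/-- two homomorphisms from a free group that agree modulo the centre on the generators differ by
a homomorphism to the centre -/
theorem exists_center_hom {E : Type*} [Group E] (f g : FreeGroup β →* E)
    (hc : ∀ y, f (FreeGroup.of y) * (g (FreeGroup.of y))⁻¹ ∈ Subgroup.center E) :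
    ∃ c : FreeGroup β →* Subgroup.center E, ∀ x, f x = (c x : E) * g x := by
  let c : FreeGroup β →* Subgroup.center E :=
    FreeGroup.lift (fun y => ⟨f (FreeGroup.of y) * (g (FreeGroup.of y))⁻¹, hc y⟩)
  have hcen : ∀ (x : FreeGroup β) (e : E), e * (c x : E) = (c x : E) * e := fun x e =>
    Subgroup.mem_center_iff.mp (c x).2 e
  have hof : ∀ y, f (FreeGroup.of y) = (c (FreeGroup.of y) : E) * g (FreeGroup.of y) := by
    intro y
    simp only [c, FreeGroup.lift_apply_of]
    simp
  let K : Subgroup (FreeGroup β) :=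
    { carrier := {x | f x = (c x : E) * g x}
      one_mem' := by simp
      mul_mem' := by
        intro x y hx hy
        simp only [Set.mem_ofPred_eq] at hx hy ⊢
        rw [_root_.map_mul, _root_.map_mul, _root_.map_mul, hx, hy, Subgroup.coe_mul]
        calc (c x : E) * g x * ((c y : E) * g y) = (c x : E) * (g x * (c y : E)) * g y := by
              simp only [mul_assoc]
          _ = (c x : E) * ((c y : E) * g x) * g y := by rw [hcen y (g x)]
          _ = _ := by simp only [mul_assoc]
      inv_mem' := by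
        intro x hx
        simp only [Set.mem_ofPred_eq] at hx ⊢
        rw [_root_.map_inv, _root_.map_inv, _root_.map_inv, hx, mul_inv_rev, Subgroup.coe_inv]
        rw [← mul_inv_rev, ← mul_inv_rev, hcen x (g x)] }
  have hK : K = ⊤ := by
    rw [eq_top_iff, ← FreeGroup.closure_range_of, Subgroup.closure_le]
    rintro _ ⟨y, rfl⟩
    exact hof y
  refine ⟨c, fun x => ?_⟩
  have : x ∈ K := by rw [hK]; trivial
  exact this

theorem eq_of_mem_commutator {E : Type*} [Group E] (f g : FreeGroup β →* E)
    (hc : ∀ y, f (FreeGroup.of y) * (g (FreeGroup.of y))⁻¹ ∈ Subgroup.center E)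
    (x : FreeGroup β) (hx : x ∈ commutator (FreeGroup β)) : f x = g x := by
  obtain ⟨c, hcx⟩ := exists_center_hom f g hc
  have h1 : c x = 1 := by
    have hle : commutator (FreeGroup β) ≤ c.ker := by
      rw [commutator_def, Subgroup.commutator_le]
      intro a _ b _
      rw [MonoidHom.mem_ker, map_commutatorElement, commutatorElement_eq_one_iff_commute]
      exact Subtype.ext (Subgroup.mem_center_iff.mp (c b).2 (c a))
    exact hle hx
  rw [hcx x, h1]
  simp

theorem mem_center_of_mem_center {E : Type*} [Group E] (f g : FreeGroup β →* E)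
    (hc : ∀ y, f (FreeGroup.of y) * (g (FreeGroup.of y))⁻¹ ∈ Subgroup.center E)
    (x : FreeGroup β) (hx : g x ∈ Subgroup.center E) : f x ∈ Subgroup.center E := by
  obtain ⟨c, hcx⟩ := exists_center_hom f g hc
  rw [hcx x]
  exact Subgroup.mul_mem _ (c x).2 hx

/-- The cover group maps to `E`. -/
theorem cover_hom {E : Type*} [Group E] (S : Set (FreeGroup β)) (w : β → FreeGroup β)
    (hw : ∀ y, w y ∈ commutator (FreeGroup β))
    (hw' : ∀ y, (FreeGroup.of y)⁻¹ * w y ∈ Subgroup.normalClosure S)
    (Z : Subgroup E) (hZ : Z ≤ Subgroup.center E) (h : β → E)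
    (hS : ∀ s ∈ S, FreeGroup.lift h s ∈ Z) :
    ∃ φ : PresentedGroup (coverRels S w) →* E,
      (∀ x ∈ commutator (FreeGroup β), φ (PresentedGroup.mk _ x) = FreeGroup.lift h x) ∧
      (∀ y, φ (PresentedGroup.of y) = FreeGroup.lift h (w y)) ∧
      (∀ x, φ (PresentedGroup.mk _ x) * (FreeGroup.lift h x)⁻¹ ∈ Subgroup.center E) := by
  have hZn : Z.Normal := ⟨fun z hz g => by
    have := (Subgroup.mem_center_iff.mp (hZ hz)) g
    rw [this, mul_inv_cancel_right]; exact hz⟩
  have hN : ∀ x ∈ Subgroup.normalClosure S, FreeGroup.lift h x ∈ Z := by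
    have : Subgroup.normalClosure S ≤ Z.comap (FreeGroup.lift h) :=
      Subgroup.normalClosure_le_normal (fun s hs => hS s hs)
    exact fun x hx => this hx
  let hh : β → E := fun y => FreeGroup.lift h (w y)
  have hc : ∀ y, (FreeGroup.lift hh) (FreeGroup.of y) * ((FreeGroup.lift h) (FreeGroup.of y))⁻¹ ∈
      Subgroup.center E := by
    intro y
    rw [FreeGroup.lift_apply_of, FreeGroup.lift_apply_of]
    have h1 := hZ (hN _ (hw' y))
    rw [map_mul, map_inv, FreeGroup.lift_apply_of] at h1
    have h2 : hh y * (h y)⁻¹ = h y * ((h y)⁻¹ * FreeGroup.lift h (w y)) * (h y)⁻¹ := by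
      simp only [hh]; group
    rw [h2]
    have h3 := Subgroup.mem_center_iff.mp h1 (h y)
    rw [h3, mul_inv_cancel_right]
    exact h1
  have hrel : ∀ r ∈ coverRels S w, FreeGroup.lift hh r = 1 := by
    rintro r (⟨y, s, hs, rfl⟩ | ⟨y, rfl⟩)
    · have h1 : FreeGroup.lift hh s ∈ Subgroup.center E :=
        mem_center_of_mem_center _ _ hc s (hZ (hS s hs))
      rw [map_commutatorElement, commutatorElement_eq_one_iff_commute]
      exact (Subgroup.mem_center_iff.mp h1 _)
    · rw [map_mul, map_inv, FreeGroup.lift_apply_of, eq_of_mem_commutator _ _ hc (w y) (hw y)]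
      simp [hh]
  refine ⟨PresentedGroup.toGroup hrel, ?_, ?_, ?_⟩
  · intro x hx
    show FreeGroup.lift hh x = _
    exact eq_of_mem_commutator _ _ hc x hx
  · intro y
    rw [PresentedGroup.toGroup.of]
  · intro x
    show FreeGroup.lift hh x * _ ∈ _
    obtain ⟨c, hcx⟩ := exists_center_hom (FreeGroup.lift hh) (FreeGroup.lift h) hc
    rw [hcx x, mul_inv_cancel_right]
    exact (c x).2

/-- The relators of `S` (and their consequences) are central in the cover group. -/
theorem mk_mem_center (S : Set (FreeGroup β)) (w : β → FreeGroup β) (x : FreeGroup β)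
    (hx : x ∈ Subgroup.normalClosure S) :
    PresentedGroup.mk (coverRels S w) x ∈ Subgroup.center (PresentedGroup (coverRels S w)) := by
  have hcen : ∀ s ∈ S, PresentedGroup.mk (coverRels S w) s ∈ Subgroup.center _ := by
    intro s hs
    rw [Subgroup.mem_center_iff]
    have hcl : Subgroup.centralizer {PresentedGroup.mk (coverRels S w) s} = ⊤ := by
      rw [eq_top_iff, ← PresentedGroup.closure_range_of, Subgroup.closure_le]
      rintro _ ⟨y, rfl⟩
      rw [SetLike.mem_coe, Subgroup.mem_centralizer_iff]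
      intro z hz
      rw [Set.mem_singleton_iff] at hz
      subst hz
      have h1 : PresentedGroup.mk (coverRels S w) ⁅FreeGroup.of y, s⁆ = 1 :=
        PresentedGroup.one_of_mem (mem_coverRels_left S w y hs)
      rw [map_commutatorElement, commutatorElement_eq_one_iff_commute] at h1
      exact h1.eq.symm
    intro g
    have hg : g ∈ Subgroup.centralizer {PresentedGroup.mk (coverRels S w) s} := by
      rw [hcl]; trivial
    rw [Subgroup.mem_centralizer_iff] at hg
    exact (hg _ rfl).symm
  have hN : Subgroup.normalClosure S ≤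
      (Subgroup.center (PresentedGroup (coverRels S w))).comap (PresentedGroup.mk _) :=
    Subgroup.normalClosure_le_normal (fun s hs => hcen s hs)
  exact hN hx

/-- The projection of the cover group to the group. -/
theorem exists_proj (S : Set (FreeGroup β)) (w : β → FreeGroup β)
    (hw' : ∀ y, (FreeGroup.of y)⁻¹ * w y ∈ Subgroup.normalClosure S) :
    ∃ π : PresentedGroup (coverRels S w) →* PresentedGroup S,
      (∀ x, π (PresentedGroup.mk _ x) = PresentedGroup.mk S x) ∧ π.ker ≤ Subgroup.center _ := by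
  have hrel : ∀ r ∈ coverRels S w, FreeGroup.lift (fun y => (PresentedGroup.of y : PresentedGroup S)) r = 1 := by
    have e : FreeGroup.lift (fun y => (PresentedGroup.of y : PresentedGroup S)) = PresentedGroup.mk S := by
      ext y; simp [PresentedGroup.of]
    rw [e]
    rintro r (⟨y, s, hs, rfl⟩ | ⟨y, rfl⟩)
    · rw [map_commutatorElement, PresentedGroup.one_of_mem hs]
      simp
    · exact (QuotientGroup.eq_one_iff _).mpr (hw' y)
  have e : FreeGroup.lift (fun y => (PresentedGroup.of y : PresentedGroup S)) = PresentedGroup.mk S := by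
    ext y; simp [PresentedGroup.of]
  refine ⟨PresentedGroup.toGroup hrel, ?_, ?_⟩
  · intro x
    show FreeGroup.lift _ x = _
    rw [e]
  · -- the images of the relators of `S` are central in the cover group
    have hcen : ∀ s ∈ S, PresentedGroup.mk (coverRels S w) s ∈ Subgroup.center _ := by
      intro s hs
      rw [Subgroup.mem_center_iff]
      have hcl : Subgroup.centralizer {PresentedGroup.mk (coverRels S w) s} = ⊤ := by
        rw [eq_top_iff, ← PresentedGroup.closure_range_of, Subgroup.closure_le]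
        rintro _ ⟨y, rfl⟩
        rw [SetLike.mem_coe, Subgroup.mem_centralizer_iff]
        intro z hz
        rw [Set.mem_singleton_iff] at hz
        subst hz
        have h1 : PresentedGroup.mk (coverRels S w) ⁅FreeGroup.of y, s⁆ = 1 :=
          PresentedGroup.one_of_mem (mem_coverRels_left S w y hs)
        rw [map_commutatorElement, commutatorElement_eq_one_iff_commute] at h1
        exact h1.eq.symm
      intro g
      have hg : g ∈ Subgroup.centralizer {PresentedGroup.mk (coverRels S w) s} := by
        rw [hcl]; trivial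
      rw [Subgroup.mem_centralizer_iff] at hg
      exact (hg _ rfl).symm
    have hN : Subgroup.normalClosure S ≤
        (Subgroup.center (PresentedGroup (coverRels S w))).comap (PresentedGroup.mk _) :=
      Subgroup.normalClosure_le_normal (fun s hs => hcen s hs)
    intro x hx
    obtain ⟨x, rfl⟩ := PresentedGroup.mk_surjective _ x
    rw [MonoidHom.mem_ker] at hx
    have h1 : PresentedGroup.mk S x = 1 := by
      have : PresentedGroup.toGroup hrel (PresentedGroup.mk _ x) = FreeGroup.lift _ x := rfl
      rw [this, e] at hx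
      exact hx
    exact hN ((QuotientGroup.eq_one_iff _).mp h1)

theorem commutator_mul_center {E : Type*} [Group E] (a b z z' : E)
    (hz : z ∈ Subgroup.center E) (hz' : z' ∈ Subgroup.center E) : ⁅a * z, b * z'⁆ = ⁅a, b⁆ := by
  have h1 := Subgroup.mem_center_iff.mp hz
  have h2 := Subgroup.mem_center_iff.mp hz'
  rw [commutatorElement_def, commutatorElement_def]
  have e1 : a * z = z * a := h1 a
  have e2 : b * z' = z' * b := h2 b
  rw [e1, e2, mul_inv_rev, mul_inv_rev]
  have e3 : z * a * (z' * b) * (a⁻¹ * z⁻¹) * (b⁻¹ * z'⁻¹) =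
      a * (z * z') * b * a⁻¹ * (z⁻¹ * b⁻¹) * z'⁻¹ := by
    rw [← h1 a, ← h2 b]; simp only [mul_assoc]
    rw [← mul_assoc z' b, ← h2 b]; simp only [mul_assoc]
  rw [e3]
  have e4 : z⁻¹ * b⁻¹ = b⁻¹ * z⁻¹ := by
    have := h1 b; rw [← mul_inv_rev, ← mul_inv_rev, this]
  rw [e4]
  have e5 : a * (z * z') * b * a⁻¹ * (b⁻¹ * z⁻¹) * z'⁻¹ = a * b * ((z * z') * (a⁻¹ * b⁻¹ * (z * z')⁻¹)) := by
    have h3 : ∀ g : E, g * (z * z') = z * z' * g :=
      Subgroup.mem_center_iff.mp (Subgroup.mul_mem _ hz hz')
    rw [mul_assoc a, ← h3 b]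
    rw [mul_inv_rev z z']
    have h4 : z⁻¹ * z'⁻¹ = z'⁻¹ * z⁻¹ := by
      have := h1 z'; rw [← mul_inv_rev, ← mul_inv_rev, this]
    rw [← h4]
    simp only [mul_assoc]
  rw [e5]
  have h3 : ∀ g : E, g * (z * z') = z * z' * g :=
    Subgroup.mem_center_iff.mp (Subgroup.mul_mem _ hz hz')
  rw [← h3 (a⁻¹ * b⁻¹ * (z * z')⁻¹)]
  simp only [mul_assoc, inv_mul_cancel, mul_one]

/-- Every stem extension of a presented group is an image of its cover group. -/
theorem stem_surj (S : Set (FreeGroup β)) (w : β → FreeGroup β)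
    (hw : ∀ y, w y ∈ commutator (FreeGroup β))
    (hw' : ∀ y, (FreeGroup.of y)⁻¹ * w y ∈ Subgroup.normalClosure S)
    {Γ : Type*} [Group Γ] (σ : Γ →* PresentedGroup S) (hσ : Cfsg.IsStemExtension σ) :
    ∃ ψ : PresentedGroup (coverRels S w) →* Γ, Function.Surjective ψ := by
  obtain ⟨hsurj, hcen, hcomm⟩ := hσ
  choose lf hlf using fun y : β => hsurj (PresentedGroup.of y)
  have e : σ.comp (FreeGroup.lift lf) = PresentedGroup.mk S := by
    ext y
    simp [hlf, PresentedGroup.of]
  have hS : ∀ s ∈ S, FreeGroup.lift lf s ∈ σ.ker := by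
    intro s hs
    rw [MonoidHom.mem_ker]
    have : σ (FreeGroup.lift lf s) = (σ.comp (FreeGroup.lift lf)) s := rfl
    rw [this, e]
    exact PresentedGroup.one_of_mem hs
  obtain ⟨φ, -, hφ, -⟩ := cover_hom S w hw hw' σ.ker hcen lf hS
  refine ⟨φ, ?_⟩
  have h1 : ∀ y, σ (φ (PresentedGroup.of y)) = PresentedGroup.of y := by
    intro y
    rw [hφ y]
    have : σ (FreeGroup.lift lf (w y)) = (σ.comp (FreeGroup.lift lf)) (w y) := rfl
    rw [this, e]
    have h2 : PresentedGroup.mk S ((FreeGroup.of y)⁻¹ * w y) = 1 :=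
      (QuotientGroup.eq_one_iff _).mpr (hw' y)
    rw [map_mul, map_inv, inv_mul_eq_one] at h2
    exact h2.symm
  have h2 : φ.range.map σ = ⊤ := by
    rw [eq_top_iff, ← PresentedGroup.closure_range_of, Subgroup.closure_le]
    rintro _ ⟨y, rfl⟩
    exact ⟨φ (PresentedGroup.of y), ⟨_, rfl⟩, h1 y⟩
  have h3 : ∀ γ : Γ, ∃ l ∈ φ.range, ∃ z ∈ σ.ker, γ = l * z := by
    intro γ
    have : σ γ ∈ φ.range.map σ := by rw [h2]; trivial
    obtain ⟨l, hl, hl2⟩ := this
    refine ⟨l, hl, l⁻¹ * γ, ?_, by group⟩
    rw [MonoidHom.mem_ker, map_mul, map_inv, hl2, inv_mul_cancel]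
  have h4 : commutator Γ ≤ φ.range := by
    rw [commutator_def, Subgroup.commutator_le]
    intro a _ b _
    obtain ⟨l, hl, z, hz, rfl⟩ := h3 a
    obtain ⟨l', hl', z', hz', rfl⟩ := h3 b
    rw [commutator_mul_center l l' z z' (hcen hz) (hcen hz')]
    have hcl : ⁅φ.range, φ.range⁆ ≤ φ.range := by
      rw [Subgroup.commutator_le]
      intro x hx y hy
      rw [commutatorElement_def]
      exact Subgroup.mul_mem _ (Subgroup.mul_mem _ (Subgroup.mul_mem _ hx hy)
          (Subgroup.inv_mem _ hx)) (Subgroup.inv_mem _ hy)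
    exact hcl (Subgroup.commutator_mem_commutator hl hl')
  intro γ
  obtain ⟨l, hl, z, hz, rfl⟩ := h3 γ
  have : l * z ∈ φ.range := Subgroup.mul_mem _ hl (h4 (hcomm hz))
  exact this

/-- If the cover group is not larger than the group, every finite stem extension is trivial. -/
theorem stem_trivial (S : Set (FreeGroup β)) (w : β → FreeGroup β)
    (hw : ∀ y, w y ∈ commutator (FreeGroup β))
    (hw' : ∀ y, (FreeGroup.of y)⁻¹ * w y ∈ Subgroup.normalClosure S)
    [Finite (PresentedGroup (coverRels S w))]
    (hcard : Nat.card (PresentedGroup (coverRels S w)) ≤ Nat.card (PresentedGroup S))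
    {Γ : Type*} [Group Γ] [Finite Γ] (σ : Γ →* PresentedGroup S) (hσ : Cfsg.IsStemExtension σ) :
    σ.ker = ⊥ := by
  obtain ⟨ψ, hψ⟩ := stem_surj S w hw hw' σ hσ
  have hfin : Finite (PresentedGroup S) := Finite.of_surjective _ hσ.1
  have h1 : Nat.card Γ ≤ Nat.card (PresentedGroup (coverRels S w)) :=
    Nat.card_le_card_of_surjective _ hψ
  have h2 : Nat.card (PresentedGroup S) ≤ Nat.card Γ := Nat.card_le_card_of_surjective _ hσ.1
  have h3 : Nat.card Γ = Nat.card (PresentedGroup S) := le_antisymm (h1.trans hcard) h2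
  have hbij : Function.Bijective σ := (Nat.bijective_iff_surjective_and_card σ).mpr ⟨hσ.1, h3⟩
  exact (MonoidHom.ker_eq_bot_iff σ).mpr hbij.1

end Cfsg.Agent.Lib.Helper28.Cov
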