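import Mathlib
import Cfsg.Agent.Lib.Helper56.TC
import Cfsg.Agent.Lib.Helper28.Cover

/-!
# Cover presentations given by letter lists, and coset enumeration certificates for them (helper28)

Letters: `2 * i` stands for the generator `i`, `2 * i + 1` for its inverse.
-/

set_option autoImplicit false

namespace Cfsg.Agent.Lib.Helper28.CovL

open Cfsg.Agent.Lib.Helper56.TC
open Cfsg.Agent.Lib.Helper28.Cov
open scoped commutatorElement

/-- the letter of the inverse -/
def li (a : ℕ) : ℕ := if a % 2 = 0 then a + 1 else a - 1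

/-- the inverse word -/
def revinv (l : List ℕ) : List ℕ := (l.map li).reverse

/-- the commutator of a letter and a word -/
def commL (z : ℕ) (s : List ℕ) : List ℕ := z :: (s ++ li z :: revinv s)

/-- the commutator of two words -/
def commL2 (a b : List ℕ) : List ℕ := a ++ (b ++ (revinv a ++ revinv b))

/-- the word `s` is a word in the generator `y` only -/
def trivL (y : ℕ) (s : List ℕ) : Bool := s.all (fun l => l / 2 == y)

/-- the relators of the cover presentation, as letter lists -/
def coverList (n : ℕ) (relL : List (List ℕ)) (facs : ℕ → List (List ℕ)) : List (List ℕ) :=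
  relL.flatMap (fun s => ((List.range n).filter (fun y => !trivL y s)).map
    (fun y => commL (2 * y) s)) ++ (List.range n).map (fun x => (facs x).flatten)

section group

variable {G : Type*} [Group G]

/-- the value of a letter -/
def gl (h : ℕ → G) (a : ℕ) : G := if a % 2 = 0 then h (a / 2) else (h (a / 2))⁻¹

theorem gl_even (h : ℕ → G) (i : ℕ) : gl h (2 * i) = h i := by
  unfold gl
  have h1 : (2 * i) % 2 = 0 := by omega
  have h2 : (2 * i) / 2 = i := by omega
  rw [if_pos h1, h2]

theorem gl_li (h : ℕ → G) (a : ℕ) : gl h (li a) = (gl h a)⁻¹ := by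
  unfold gl li
  by_cases ha : a % 2 = 0
  · have h1 : ¬ (a + 1) % 2 = 0 := by omega
    have h2 : (a + 1) / 2 = a / 2 := by omega
    rw [if_pos ha, if_neg h1, if_pos ha, h2]
  · have h1 : (a - 1) % 2 = 0 := by omega
    have h2 : (a - 1) / 2 = a / 2 := by omega
    rw [if_neg ha, if_pos h1, if_neg ha, h2, inv_inv]

theorem ew_revinv (h : ℕ → G) (l : List ℕ) : ew (gl h) (revinv l) = (ew (gl h) l)⁻¹ := by
  induction l with
  | nil => simp [revinv, ew]
  | cons a l ih =>
    have e : revinv (a :: l) = revinv l ++ [li a] := by simp [revinv]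
    rw [e, ew_append, ih, ew_cons, ew_cons, ew_nil, mul_one, gl_li, mul_inv_rev]

theorem ew_commL (h : ℕ → G) (z : ℕ) (s : List ℕ) :
    ew (gl h) (commL z s) = ⁅gl h z, ew (gl h) s⁆ := by
  unfold commL
  rw [ew_cons, ew_append, ew_cons, ew_revinv, gl_li, commutatorElement_def]
  simp only [mul_assoc]

theorem ew_commL2 (h : ℕ → G) (a b : List ℕ) :
    ew (gl h) (commL2 a b) = ⁅ew (gl h) a, ew (gl h) b⁆ := by
  unfold commL2
  rw [ew_append, ew_append, ew_append, ew_revinv, ew_revinv, commutatorElement_def]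
  simp only [mul_assoc]

theorem map_gl {G' : Type*} [Group G'] (φ : G →* G') (h : ℕ → G) (a : ℕ) :
    φ (gl h a) = gl (fun i => φ (h i)) a := by
  unfold gl
  split_ifs
  · rfl
  · rw [map_inv]

theorem map_ew_gl {G' : Type*} [Group G'] (φ : G →* G') (h : ℕ → G) (l : List ℕ) :
    φ (ew (gl h) l) = ew (gl (fun i => φ (h i))) l := by
  rw [Tabs.map_ew]
  apply ew_congr
  intro a _
  exact map_gl φ h a

theorem ew_flatten (g : ℕ → G) (L : List (List ℕ)) :
    ew g L.flatten = (L.map (ew g)).prod := by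
  induction L with
  | nil => simp [ew]
  | cons a L ih => rw [List.flatten_cons, ew_append, ih, List.map_cons, List.prod_cons]

theorem ew_flatMap (g : ℕ → G) (f : ℕ → List ℕ) (l : List ℕ) :
    ew g (l.flatMap f) = ew (fun a => ew g (f a)) l := by
  induction l with
  | nil => simp [ew]
  | cons a l ih => rw [List.flatMap_cons, ew_append, ih, ew_cons]

end group

/-! ### Exponent sums -/

/-- the sign of a letter -/
def sgn (a : ℕ) : ℤ := if a % 2 = 0 then 1 else -1

/-- the exponent sum of the generator `i` in a word -/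
def esum (l : List ℕ) (i : ℕ) : ℤ := (l.map (fun a => if a / 2 = i then sgn a else 0)).sum

theorem prod_esum {A : Type*} [CommGroup A] (f : ℕ → A) (n : ℕ) (l : List ℕ)
    (hl : ∀ a ∈ l, a / 2 < n) :
    (l.map (fun a => f (a / 2) ^ sgn a)).prod = ∏ i ∈ Finset.range n, f i ^ esum l i := by
  induction l with
  | nil => simp [esum]
  | cons a l ih =>
    rw [List.map_cons, List.prod_cons, ih (fun b hb => hl b (List.mem_cons_of_mem _ hb))]
    have h1 : f (a / 2) ^ sgn a =
        ∏ i ∈ Finset.range n, f i ^ (if a / 2 = i then sgn a else 0) := by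
      rw [Finset.prod_eq_single (a / 2)]
      · rw [if_pos rfl]
      · intro b _ hb
        rw [if_neg (Ne.symm hb), zpow_zero]
      · intro h
        exact absurd (Finset.mem_range.mpr (hl a List.mem_cons_self)) h
    rw [h1, ← Finset.prod_mul_distrib]
    apply Finset.prod_congr rfl
    intro i _
    rw [← zpow_add]
    congr 1

theorem gl_eq_zpow {G : Type*} [Group G] (h : ℕ → G) (a : ℕ) : gl h a = h (a / 2) ^ sgn a := by
  unfold gl sgn
  split_ifs
  · rw [zpow_one]
  · rw [zpow_neg, zpow_one]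

/-- the word in the free group -/
def wd {β : Type*} (nm : ℕ → β) (l : List ℕ) : FreeGroup β :=
  ew (gl (fun i => FreeGroup.of (nm i))) l

theorem wd_mem_commutator {β : Type*} (nm : ℕ → β) (n : ℕ) (l : List ℕ)
    (hl : ∀ a ∈ l, a / 2 < n) (he : ∀ i < n, esum l i = 0) :
    wd nm l ∈ commutator (FreeGroup β) := by
  rw [← Abelianization.ker_of, MonoidHom.mem_ker]
  unfold wd
  rw [Tabs.map_ew]
  have e : ew (fun a => Abelianization.of (gl (fun i => FreeGroup.of (nm i)) a)) l =
      (l.map (fun a => (Abelianization.of (FreeGroup.of (nm (a / 2))) :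
        Abelianization (FreeGroup β)) ^ sgn a)).prod := by
    unfold ew
    congr 1
    apply List.map_congr_left
    intro a _
    rw [gl_eq_zpow, map_zpow]
  rw [e, prod_esum (fun i => (Abelianization.of (FreeGroup.of (nm i)) :
    Abelianization (FreeGroup β))) n l hl]
  apply Finset.prod_eq_one
  intro i hi
  rw [he i (Finset.mem_range.mp hi), zpow_zero]

theorem lift_wd {β : Type*} {G : Type*} [Group G] (nm : ℕ → β) (h : β → G) (l : List ℕ) :
    FreeGroup.lift h (wd nm l) = ew (gl (fun i => h (nm i))) l := by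
  unfold wd
  rw [map_ew_gl]
  apply ew_congr
  intro a _
  congr 1
  funext i
  rw [FreeGroup.lift_apply_of]

theorem mk_wd {β : Type*} (S : Set (FreeGroup β)) (nm : ℕ → β) (l : List ℕ) :
    PresentedGroup.mk S (wd nm l) = ew (gl (fun i => (PresentedGroup.of (nm i) :
      PresentedGroup S))) l := by
  unfold wd
  rw [map_ew_gl]
  rfl

theorem wd_revinv {β : Type*} (nm : ℕ → β) (l : List ℕ) : wd nm (revinv l) = (wd nm l)⁻¹ :=
  ew_revinv _ l

theorem wd_flatten {β : Type*} (nm : ℕ → β) (L : List (List ℕ)) :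
    wd nm L.flatten = (L.map (wd nm)).prod := ew_flatten _ L

/-! ### The cover presentation of a level -/

/-- the checks on the data of a level -/
structure LOk (n : ℕ) (relL : List (List ℕ)) (facs : ℕ → List (List ℕ)) : Prop where
  hlt : ∀ x < n, ∀ a ∈ (facs x).flatten, a / 2 < n
  hes : ∀ x < n, ∀ i < n, esum ((2 * x) :: (facs x).flatten) i = 0
  hfac : ∀ x < n, ∀ f ∈ facs x, f ∈ relL ∨ revinv f ∈ relL

/-- the cover word of a generator -/
def cw {β : Type*} (nm : ℕ → β) (idx : β → ℕ) (facs : ℕ → List (List ℕ)) (y : β) : FreeGroup β :=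
  FreeGroup.of y * wd nm (facs (idx y)).flatten

section level

variable {β : Type*} (nm : ℕ → β) (idx : β → ℕ) (n : ℕ) (relL : List (List ℕ))
  (facs : ℕ → List (List ℕ)) (S : Set (FreeGroup β))

theorem cw_mem_commutator (hidx : ∀ y, idx y < n ∧ nm (idx y) = y) (hok : LOk n relL facs)
    (y : β) : cw nm idx facs y ∈ commutator (FreeGroup β) := by
  have e : cw nm idx facs y = wd nm ((2 * idx y) :: (facs (idx y)).flatten) := by
    unfold cw wd
    rw [ew_cons, gl_even, (hidx y).2]
  rw [e]
  apply wd_mem_commutator nm n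
  · intro a ha
    rcases List.mem_cons.mp ha with rfl | ha
    · have := (hidx y).1
      omega
    · exact hok.hlt _ (hidx y).1 a ha
  · exact hok.hes _ (hidx y).1

theorem cw_mem_normalClosure (hidx : ∀ y, idx y < n ∧ nm (idx y) = y) (hok : LOk n relL facs)
    (hS : ∀ l ∈ relL, wd nm l ∈ S) (y : β) :
    (FreeGroup.of y)⁻¹ * cw nm idx facs y ∈ Subgroup.normalClosure S := by
  unfold cw
  rw [inv_mul_cancel_left, wd_flatten]
  apply Subgroup.list_prod_mem
  intro x hx
  rw [List.mem_map] at hx
  obtain ⟨f, hf, rfl⟩ := hx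
  rcases hok.hfac _ (hidx y).1 f hf with h | h
  · exact Subgroup.subset_normalClosure (hS f h)
  · have h1 := Subgroup.subset_normalClosure (hS _ h)
    rw [wd_revinv] at h1
    exact (Subgroup.inv_mem_iff _).mp h1

/-- the generators of the cover group -/
noncomputable def cg (w : β → FreeGroup β) (i : ℕ) : PresentedGroup (coverRels S w) :=
  PresentedGroup.of (nm i)

theorem cover_rel (hnm : ∀ x < n, idx (nm x) = x)
    (hS : ∀ l ∈ relL, wd nm l ∈ S) :
    ∀ r ∈ coverList n relL facs, ew (gl (cg nm S (cw nm idx facs))) r = 1 := by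
  intro r hr
  unfold coverList at hr
  rcases List.mem_append.mp hr with hr | hr
  · rw [List.mem_flatMap] at hr
    obtain ⟨s, hs, hr⟩ := hr
    rw [List.mem_map] at hr
    obtain ⟨y, _, rfl⟩ := hr
    rw [ew_commL, gl_even]
    have h1 : ew (gl (cg nm S (cw nm idx facs))) s =
        PresentedGroup.mk (coverRels S (cw nm idx facs)) (wd nm s) := (mk_wd _ nm s).symm
    rw [h1]
    have h2 : PresentedGroup.mk (coverRels S (cw nm idx facs))
        (⁅FreeGroup.of (nm y), wd nm s⁆ : FreeGroup β) = 1 :=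
      PresentedGroup.one_of_mem (mem_coverRels_left S _ (nm y) (hS s hs))
    rw [map_commutatorElement] at h2
    exact h2
  · rw [List.mem_map] at hr
    obtain ⟨x, hx, rfl⟩ := hr
    have h1 : ew (gl (cg nm S (cw nm idx facs))) (facs x).flatten =
        PresentedGroup.mk (coverRels S (cw nm idx facs)) (wd nm (facs x).flatten) :=
      (mk_wd _ nm _).symm
    rw [h1]
    have h2 := mem_coverRels_right S (cw nm idx facs) (nm x)
    have h3 : (FreeGroup.of (nm x))⁻¹ * cw nm idx facs (nm x) =
        wd nm (facs (idx (nm x))).flatten := by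
      unfold cw
      rw [inv_mul_cancel_left]
    rw [h3, hnm x (List.mem_range.mp hx)] at h2
    exact PresentedGroup.one_of_mem h2

theorem cg_closure (hidx : ∀ y, idx y < n ∧ nm (idx y) = y) (w : β → FreeGroup β) :
    Subgroup.closure {x | ∃ i < n, x = cg nm S w i} = ⊤ := by
  rw [eq_top_iff, ← PresentedGroup.closure_range_of, Subgroup.closure_le]
  rintro _ ⟨y, rfl⟩
  apply Subgroup.subset_closure
  refine ⟨idx y, (hidx y).1, ?_⟩
  unfold cg
  rw [(hidx y).2]

end level

/-! ### Certificates -/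

/-- the checkable part of a coset enumeration certificate -/
structure CertC (T : Tabs) : Prop where
  hNN : T.N ≤ T.N'
  hN : 0 < T.N
  hinvK : ∀ l < T.K, T.inv l < T.K
  hinvli : ∀ l < T.K, T.inv l = li l
  hsubK : ∀ s ∈ T.subs, ∀ a ∈ s, a < T.K
  hrelK : ∀ w ∈ T.rels1, ∀ a ∈ w, a < T.K
  hrx : T.rx = T.relsX
  hchk : ∀ x < T.N', T.chkName x = true
  hfin : ∀ v < T.N, T.chkFinName v = true

theorem CertC.index_le {T : Tabs} (hC : CertC T) {G : Type*} [Group G] (H : Subgroup G)
    (h : ℕ → G) (n : ℕ) (hK : T.K = 2 * n)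
    (hgen : Subgroup.closure {x | ∃ i < n, x = h i} = ⊤)
    (hrel : ∀ w ∈ T.rels1, ew (gl h) w = 1)
    (hsub : ∀ s ∈ T.subs, ew (gl h) s ∈ H) :
    Finite (G ⧸ H) ∧ Nat.card (G ⧸ H) ≤ T.N := by
  have hS : T.Sem H (gl h) :=
    { hNN := hC.hNN
      hinvK := hC.hinvK
      hinv := fun l hl => by rw [hC.hinvli l hl, gl_li]
      hsubH := hsub
      hsubK := hC.hsubK
      hrel := hrel
      hrelK := hC.hrelK
      hrx := hC.hrx
      hchk := hC.hchk
      hfin := hC.hfin }
  have hgen' : Subgroup.closure {x | ∃ l < T.K, x = gl h l} = ⊤ := by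
    rw [eq_top_iff, ← hgen, Subgroup.closure_le]
    rintro _ ⟨i, hi, rfl⟩
    apply Subgroup.subset_closure
    exact ⟨2 * i, by omega, (gl_even h i).symm⟩
  have hsurj : Function.Surjective (fun v : Fin T.N => T.val H (gl h) v) := by
    intro q
    obtain ⟨v, hv, rfl⟩ := Tabs.cover hS hC.hN hgen' q
    exact ⟨⟨v, hv⟩, rfl⟩
  have hfin : Finite (G ⧸ H) := Finite.of_surjective _ hsurj
  refine ⟨hfin, ?_⟩
  have h := Nat.card_le_card_of_surjective _ hsurj
  rwa [Nat.card_fin] at h

theorem CertC.card_le {T : Tabs} (hC : CertC T) {G : Type*} [Group G] (H : Subgroup G)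
    (h : ℕ → G) (n : ℕ) (hK : T.K = 2 * n)
    (hgen : Subgroup.closure {x | ∃ i < n, x = h i} = ⊤)
    (hrel : ∀ w ∈ T.rels1, ew (gl h) w = 1)
    (hsub : ∀ s ∈ T.subs, ew (gl h) s ∈ H) [Finite H] :
    Finite G ∧ Nat.card G ≤ T.N * Nat.card H := by
  obtain ⟨hfin, hle⟩ := hC.index_le H h n hK hgen hrel hsub
  have hG : Finite G := by
    have e := Subgroup.groupEquivQuotientProdSubgroup (s := H)
    exact Finite.of_equiv _ e.symm
  refine ⟨hG, ?_⟩
  rw [← Subgroup.index_mul_card H]
  exact Nat.mul_le_mul_right _ hle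

/-- The bound for the cover group of a level. -/
theorem level_card_le {β : Type*} (nm : ℕ → β) (idx : β → ℕ) (n : ℕ) (relL : List (List ℕ))
    (facs : ℕ → List (List ℕ)) (S : Set (FreeGroup β)) {T : Tabs} (hC : CertC T)
    (hK : T.K = 2 * n) (hT : T.rels1 = coverList n relL facs)
    (hidx : ∀ y, idx y < n ∧ nm (idx y) = y) (hnm : ∀ x < n, idx (nm x) = x)
    (hS : ∀ l ∈ relL, wd nm l ∈ S)
    (H : Subgroup (PresentedGroup (coverRels S (cw nm idx facs)))) [Finite H]
    (hsub : ∀ s ∈ T.subs, ew (gl (cg nm S (cw nm idx facs))) s ∈ H) :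
    Finite (PresentedGroup (coverRels S (cw nm idx facs))) ∧
      Nat.card (PresentedGroup (coverRels S (cw nm idx facs))) ≤ T.N * Nat.card H := by
  apply hC.card_le H (cg nm S (cw nm idx facs)) n hK (cg_closure nm idx n S hidx _) _ hsub
  rw [hT]
  exact cover_rel nm idx n relL facs S hnm hS

end Cfsg.Agent.Lib.Helper28.CovL
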