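import Mathlib
import Cfsg.Agent.Lib.Helper56.TC
import Cfsg.Agent.Lib.Helper28.Cover
import Cfsg.Agent.Lib.Helper28.CoverL

/-!
# Further lemmas on letter lists and cover groups (helper28)
-/

set_option autoImplicit false

namespace Cfsg.Agent.Lib.Helper28.CovL

open Cfsg.Agent.Lib.Helper56.TC
open Cfsg.Agent.Lib.Helper28.Cov
open scoped commutatorElement

section group

variable {G : Type*} [Group G]

theorem ew_gl_even (h : ℕ → G) (l : List ℕ) (hl : ∀ a ∈ l, a % 2 = 0) :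
    ew (gl h) l = ew h (l.map (· / 2)) := by
  induction l with
  | nil => rfl
  | cons a l ih =>
    rw [List.map_cons, ew_cons, ew_cons, ih (fun b hb => hl b (List.mem_cons_of_mem _ hb))]
    congr 1
    unfold gl
    rw [if_pos (hl a List.mem_cons_self)]

theorem ew_gl_congr (h h' : ℕ → G) (m : ℕ) (hh : ∀ i < m, h i = h' i) (l : List ℕ)
    (hl : ∀ a ∈ l, a / 2 < m) : ew (gl h) l = ew (gl h') l := by
  apply ew_congr
  intro a ha
  unfold gl
  rw [hh _ (hl a ha)]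

/-- a commutator of two elements that are in the image of `φ` modulo the centre is in the
image of `φ` -/
theorem comm_mem_range {F : Type*} [Group F] (φ : F →* G) (x₁ x₂ : G) (y₁ y₂ : F)
    (h₁ : x₁ * (φ y₁)⁻¹ ∈ Subgroup.center G) (h₂ : x₂ * (φ y₂)⁻¹ ∈ Subgroup.center G) :
    ⁅x₁, x₂⁆ ∈ φ.range := by
  have e1 : x₁ = φ y₁ * ((φ y₁)⁻¹ * x₁) := by rw [mul_inv_cancel_left]
  have e2 : x₂ = φ y₂ * ((φ y₂)⁻¹ * x₂) := by rw [mul_inv_cancel_left]
  have key : ∀ (x : G) (y : F), x * (φ y)⁻¹ ∈ Subgroup.center G →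
      (φ y)⁻¹ * x ∈ Subgroup.center G := by
    intro x y hxy
    have hz := (Subgroup.mem_center_iff.mp hxy) (φ y)
    have e : (φ y)⁻¹ * x = x * (φ y)⁻¹ := by
      have e' : x = x * (φ y)⁻¹ * φ y := by rw [inv_mul_cancel_right]
      calc (φ y)⁻¹ * x = (φ y)⁻¹ * (x * (φ y)⁻¹ * φ y) := by rw [← e']
        _ = (φ y)⁻¹ * (φ y * (x * (φ y)⁻¹)) := by rw [← hz]
        _ = x * (φ y)⁻¹ := by rw [inv_mul_cancel_left]
    rw [e]
    exact hxy
  have c1 := key x₁ y₁ h₁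
  have c2 := key x₂ y₂ h₂
  rw [e1, e2, commutator_mul_center _ _ _ _ c1 c2, ← map_commutatorElement]
  exact ⟨_, rfl⟩

end group

end Cfsg.Agent.Lib.Helper28.CovL
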