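import Cfsg.Agent.Lib.Helper28.G2Hom

/-!
# Root elements in the range of `γ`, and the generators in the Chevalley group

Generated file (helper28): chains of applications of the product identities of `G2Mat`.
-/

set_option autoImplicit false

namespace Cfsg.Agent.Lib.Helper28.G2

open Cfsg.Lie
open Cfsg.Agent.Lib.Helper19 (F4)

/-! ### the root elements lie in the range of `γ` -/

theorem ik_11_3 : In γ.range 2521730052298648023175107160126325037568765405416747548678413382399741412578611583591575281964817436290844684107907121 := in_word [2] _ bw_11_3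
theorem ik_11_2 : In γ.range 2521730503216530417134562846635511249469164032536577167223165139158322049614504118237799146035574191340016635599650849 := in_word [5] _ bw_11_2
theorem ik_6_2 : In γ.range 3782592597202412589339871805341833412848360947016880157719391166037947285999923261025899696615561630510136459312234497 := in_word [5, 0] _ bw_6_2
theorem ik_6_3 : In γ.range 4413024696344724256736336447453390227813258296469753920260979469395840109806192298730952489054895712471990484307279873 := in_word [3, 5, 0, 3, 2, 3, 5, 0, 3, 2] _ bw_6_3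
theorem ik_4_2 : In γ.range 2521728398917789272044948417160542041953917051815528861763219819184159553706570435619677433747836521109277106852331521 := in_word [4, 0] _ bw_4_2
theorem ik_7_3 : In γ.range 2521728400981938009006358467099871956949173722148675405728550005273687438111373512031921187941580267681470605726593025 := in_word [0, 1, 4, 0, 1, 0, 2] _ bw_7_3
theorem ik_5_3 : In γ.range 2521728427100300247832941255792486967156261655181026951564854575871590523104340378171637157425725911538455335216873473 := in_word [4, 1, 0, 3, 5, 4, 1, 0, 1, 4, 3, 0, 1, 0, 3, 2, 3, 1, 4, 1, 0, 1, 5, 3, 2, 3, 0, 5] _ bw_5_3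
theorem ik_7_1 : In γ.range 2521728399660882806161901483582675062865339865278213822725259499483673224965501964527680156813542758874004866407075841 := in_word [1, 3, 0, 2, 3, 2, 3, 0, 1, 4, 0, 1, 0, 3, 2, 3, 2, 4, 1, 0, 3, 1] _ bw_7_1

theorem ik_na : In γ.range 2521728396578420665690256912339181321120863023561110853324951028013121232811465847851428949981296163192524624625664005 := in_mul γ.range _ _ _ na_2 ik_7_3 (in_mul γ.range _ _ _ na_1 ik_4_2 ik_7_3)
theorem ik_nb : In γ.range 1260864226467134330266178743679892738539992337510326951417311275953782825905722008120178125464021806100712664233672705 := in_mul γ.range _ _ _ nb_2 ik_6_2 (in_mul γ.range _ _ _ nb_1 ik_5_3 ik_6_2)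

theorem ik_11_1 : In γ.range 2521729150453709240790099514023599127158725635132209224178256192717436549913865364864738429985500186886824658565333009 := in_mul γ.range _ _ _ mm_125 ik_11_2 ik_11_3
theorem ik_6_1 : In γ.range 3152160498060100921943407163230276597883463596238871096594014615492581336636465336450233981519513329957077783347724289 := in_mul γ.range _ _ _ mm_126 ik_6_2 ik_6_3
theorem ik_7_2 : In γ.range 2521728400541586274770440529318014157878201823245113523018742420099600449960778568491006105271917561322576730927407105 := in_mul γ.range _ _ _ mm_127 ik_7_1 ik_7_3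
theorem ik_10_3 : In γ.range 2529116275079633237124286016370391297900144362888421618849066322016817952656906602075368982312412526873465161972187329 := in_conj γ.range _ _ _ _ mm_128 mm_129 ik_nb ik_11_1
theorem ik_10_1 : In γ.range 2524191024305073568399046589941557697835466376156893902919174518433679025843594846301910728080311196084093187937796161 := in_conj γ.range _ _ _ _ mm_130 mm_131 ik_nb ik_11_2
theorem ik_10_2 : In γ.range 2526653649692366841230119369981237842521488780188326490757103828122457889184856506939866936162034146743738804597686401 := in_mul γ.range _ _ _ mm_132 ik_10_1 ik_10_3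
theorem ik_5_2 : In γ.range 2521728417706129916737608344234564572410363185421542579234344815170113883922267149440574551716179634894309531704098817 := in_conj γ.range _ _ _ _ mm_133 mm_134 ik_nb ik_6_1
theorem ik_5_1 : In γ.range 2521728408311959585642275432676642177664464715662058187157780366614164738880563730021305886213802970647205368008015873 := in_mul γ.range _ _ _ mm_135 ik_5_2 ik_5_3
theorem ik_4_3 : In γ.range 2521728398917789280793951283700014118092148495182224199263399047857016950190286999240812378337122324089375734530572289 := in_conj γ.range _ _ _ _ mm_136 mm_137 ik_na ik_7_1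
theorem ik_4_1 : In γ.range 2521728398917789263295945452843343101760353128328804043163097285808555272366897742572488257045075632113505705952280577 := in_conj γ.range _ _ _ _ mm_138 mm_139 ik_na ik_7_2
theorem ik_8_2 : In γ.range 2867111609483059611417707826433579374430440491915871939095848466365865793303447739642321403026093827702744880297019393 := in_conj γ.range _ _ _ _ mm_140 mm_141 ik_nb ik_7_1
theorem ik_8_3 : In γ.range 3014869132719538908455210278663454706387302508914710203274785728230923471167176450646177454553977466848572204010966017 := in_conj γ.range _ _ _ _ mm_142 mm_143 ik_nb ik_7_2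
theorem ik_8_1 : In γ.range 2689802581599284454945364249691577532294110970263580138522583988717875317355810237360512241234032055850866968281220097 := in_mul γ.range _ _ _ mm_144 ik_8_2 ik_8_3
theorem ik_1_1 : In γ.range 2521728398917789254546942521118719782918568055153968134728789209915114369877489568252097645597014437438539431483015169 := in_conj γ.range _ _ _ _ mm_145 mm_146 ik_na ik_5_1
theorem ik_1_2 : In γ.range 2521728398917789254546942521118719782918569864405362467794344272487188977296242095673080569105317532669441361280237569 := in_conj γ.range _ _ _ _ mm_147 mm_148 ik_na ik_5_2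
theorem ik_1_3 : In γ.range 2521728398917789254546942521118719782918571673656756800859899335059263584714994623093089936952645347719993823015731201 := in_mul γ.range _ _ _ mm_149 ik_1_1 ik_1_2
theorem ik_3_3 : In γ.range 2521728398917789359534977310703293124133119260412942459815539203071811190222507153797745039393437619961749262079885313 := in_conj γ.range _ _ _ _ mm_150 mm_151 ik_nb ik_4_1
theorem ik_3_1 : In γ.range 2521728398917789289542954117646911058545824936216790564743328151062087654140994304725951684135726128192615151395930113 := in_conj γ.range _ _ _ _ mm_152 mm_153 ik_nb ik_4_2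
theorem ik_3_2 : In γ.range 2521728398917789324538965714175102819840306682963268738951398747229661792844937982614690431499752641669255085137330177 := in_mul γ.range _ _ _ mm_154 ik_3_1 ik_3_3
theorem ik_9_3 : In γ.range 2640244650698363645097383862371914021890517293725175762769614319648283058812586697602293112808594365037293317518262273 := in_conj γ.range _ _ _ _ mm_155 mm_156 ik_na ik_8_1
theorem ik_9_1 : In γ.range 2561286724145334721363086607177924392387064462862825524451221642661455702856384010746742393546653304840451250299338753 := in_conj γ.range _ _ _ _ mm_157 mm_158 ik_na ik_8_2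
theorem ik_9_2 : In γ.range 2600996558552121197627319000264523582118916479451605843201656934883406921179694190184349272031403671719765431933730817 := in_mul γ.range _ _ _ mm_159 ik_9_1 ik_9_3
theorem ik_0_3 : In γ.range 2521728398917789254546942521118719782918566245902578856653234238088018800543730161400824999832659924778966112861683713 := in_conj γ.range _ _ _ _ mm_160 mm_161 ik_nb ik_1_1
theorem ik_0_1 : In γ.range 2521728398917789254546942521118719782918566245902575486659900844258032775153734747687901160374078388642088648324415489 := in_conj γ.range _ _ _ _ mm_162 mm_163 ik_nb ik_1_2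
theorem ik_0_2 : In γ.range 2521728398917789254546942521118719782918566245902577171656567541173025787848732454544363080110622711628215155641286657 := in_mul γ.range _ _ _ mm_164 ik_0_1 ik_0_3
theorem ik_2_2 : In γ.range 2521728398917789254546942781859324996566396816479755782996452440091752274247255250814201677151781021277212752494985217 := in_conj γ.range _ _ _ _ mm_165 mm_166 ik_na ik_3_1
theorem ik_2_3 : In γ.range 2521728398917789254546942912229627603390312101768346773662998815448696203268328316615215578062885163431926648119754753 := in_conj γ.range _ _ _ _ mm_167 mm_168 ik_na ik_3_2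
theorem ik_2_1 : In γ.range 2521728398917789254546942651489022389742481531191164792329830739513913552978358937985525839957860677938528626700976129 := in_mul γ.range _ _ _ mm_169 ik_2_2 ik_2_3

theorem xin_0 : ∀ t : K, Cfsg.Agent.Lib.Helper18.xU chevG2 hD 0 t ∈ γ.range := by
  intro t
  cases t
  · exact xU_zero_mem γ.range 0 (by norm_num)
  · exact xU_of_in γ.range 0 _ _ rX_0_1 ik_0_1
  · exact xU_of_in γ.range 0 _ _ rX_0_2 ik_0_2
  · exact xU_of_in γ.range 0 _ _ rX_0_3 ik_0_3

theorem xin_1 : ∀ t : K, Cfsg.Agent.Lib.Helper18.xU chevG2 hD 1 t ∈ γ.range := by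
  intro t
  cases t
  · exact xU_zero_mem γ.range 1 (by norm_num)
  · exact xU_of_in γ.range 1 _ _ rX_1_1 ik_1_1
  · exact xU_of_in γ.range 1 _ _ rX_1_2 ik_1_2
  · exact xU_of_in γ.range 1 _ _ rX_1_3 ik_1_3

theorem xin_2 : ∀ t : K, Cfsg.Agent.Lib.Helper18.xU chevG2 hD 2 t ∈ γ.range := by
  intro t
  cases t
  · exact xU_zero_mem γ.range 2 (by norm_num)
  · exact xU_of_in γ.range 2 _ _ rX_2_1 ik_2_1
  · exact xU_of_in γ.range 2 _ _ rX_2_2 ik_2_2
  · exact xU_of_in γ.range 2 _ _ rX_2_3 ik_2_3

theorem xin_3 : ∀ t : K, Cfsg.Agent.Lib.Helper18.xU chevG2 hD 3 t ∈ γ.range := by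
  intro t
  cases t
  · exact xU_zero_mem γ.range 3 (by norm_num)
  · exact xU_of_in γ.range 3 _ _ rX_3_1 ik_3_1
  · exact xU_of_in γ.range 3 _ _ rX_3_2 ik_3_2
  · exact xU_of_in γ.range 3 _ _ rX_3_3 ik_3_3

theorem xin_4 : ∀ t : K, Cfsg.Agent.Lib.Helper18.xU chevG2 hD 4 t ∈ γ.range := by
  intro t
  cases t
  · exact xU_zero_mem γ.range 4 (by norm_num)
  · exact xU_of_in γ.range 4 _ _ rX_4_1 ik_4_1
  · exact xU_of_in γ.range 4 _ _ rX_4_2 ik_4_2
  · exact xU_of_in γ.range 4 _ _ rX_4_3 ik_4_3

theorem xin_5 : ∀ t : K, Cfsg.Agent.Lib.Helper18.xU chevG2 hD 5 t ∈ γ.range := by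
  intro t
  cases t
  · exact xU_zero_mem γ.range 5 (by norm_num)
  · exact xU_of_in γ.range 5 _ _ rX_5_1 ik_5_1
  · exact xU_of_in γ.range 5 _ _ rX_5_2 ik_5_2
  · exact xU_of_in γ.range 5 _ _ rX_5_3 ik_5_3

theorem xin_6 : ∀ t : K, Cfsg.Agent.Lib.Helper18.xU chevG2 hD 6 t ∈ γ.range := by
  intro t
  cases t
  · exact xU_zero_mem γ.range 6 (by norm_num)
  · exact xU_of_in γ.range 6 _ _ rX_6_1 ik_6_1
  · exact xU_of_in γ.range 6 _ _ rX_6_2 ik_6_2
  · exact xU_of_in γ.range 6 _ _ rX_6_3 ik_6_3

theorem xin_7 : ∀ t : K, Cfsg.Agent.Lib.Helper18.xU chevG2 hD 7 t ∈ γ.range := by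
  intro t
  cases t
  · exact xU_zero_mem γ.range 7 (by norm_num)
  · exact xU_of_in γ.range 7 _ _ rX_7_1 ik_7_1
  · exact xU_of_in γ.range 7 _ _ rX_7_2 ik_7_2
  · exact xU_of_in γ.range 7 _ _ rX_7_3 ik_7_3

theorem xin_8 : ∀ t : K, Cfsg.Agent.Lib.Helper18.xU chevG2 hD 8 t ∈ γ.range := by
  intro t
  cases t
  · exact xU_zero_mem γ.range 8 (by norm_num)
  · exact xU_of_in γ.range 8 _ _ rX_8_1 ik_8_1
  · exact xU_of_in γ.range 8 _ _ rX_8_2 ik_8_2
  · exact xU_of_in γ.range 8 _ _ rX_8_3 ik_8_3

theorem xin_9 : ∀ t : K, Cfsg.Agent.Lib.Helper18.xU chevG2 hD 9 t ∈ γ.range := by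
  intro t
  cases t
  · exact xU_zero_mem γ.range 9 (by norm_num)
  · exact xU_of_in γ.range 9 _ _ rX_9_1 ik_9_1
  · exact xU_of_in γ.range 9 _ _ rX_9_2 ik_9_2
  · exact xU_of_in γ.range 9 _ _ rX_9_3 ik_9_3

theorem xin_10 : ∀ t : K, Cfsg.Agent.Lib.Helper18.xU chevG2 hD 10 t ∈ γ.range := by
  intro t
  cases t
  · exact xU_zero_mem γ.range 10 (by norm_num)
  · exact xU_of_in γ.range 10 _ _ rX_10_1 ik_10_1
  · exact xU_of_in γ.range 10 _ _ rX_10_2 ik_10_2
  · exact xU_of_in γ.range 10 _ _ rX_10_3 ik_10_3

theorem xin_11 : ∀ t : K, Cfsg.Agent.Lib.Helper18.xU chevG2 hD 11 t ∈ γ.range := by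
  intro t
  cases t
  · exact xU_zero_mem γ.range 11 (by norm_num)
  · exact xU_of_in γ.range 11 _ _ rX_11_1 ik_11_1
  · exact xU_of_in γ.range 11 _ _ rX_11_2 ik_11_2
  · exact xU_of_in γ.range 11 _ _ rX_11_3 ik_11_3

theorem xin_all (r : ℕ) (hr : r < 12) : ∀ t : K, Cfsg.Agent.Lib.Helper18.xU chevG2 hD r t ∈ γ.range := by
  interval_cases r
  exacts [xin_0, xin_1, xin_2, xin_3, xin_4, xin_5, xin_6, xin_7, xin_8, xin_9, xin_10, xin_11]

/-! ### the generators lie in the Chevalley group -/

theorem ig_0 : In (chevG2.group K) 3784441670541609743140567710863319111296071846430480668531905464816697608087906212452004228671745730815488221184524321 :=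
  in_mul _ _ _ _ mm_170 (in_x 11 _ _ rX_11_2) (in_x 6 _ _ rX_6_2)

theorem ig_1 : In (chevG2.group K) 4064636100475560363436856488343082010921352141462047779131315502158351985517652760467020475111243716865262975356797717 :=
  in_mul _ _ _ _ mm_173 (in_x 11 _ _ rX_11_1) (in_mul _ _ _ _ mm_172 (in_x 7 _ _ rX_7_3) (in_mul _ _ _ _ mm_171 (in_x 6 _ _ rX_6_2) (in_mul _ _ _ _ mm_121 (in_x 4 _ _ rX_4_2) (in_x 7 _ _ rX_7_3))))

theorem ig_2 : In (chevG2.group K) 2521730052298648023175107160126325037568765405416747548678413382399741412578611583591575281964817436290844684107907121 :=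
  in_x 11 _ _ rX_11_3

theorem ig_3 : In (chevG2.group K) 2136922539972923358284600391700390587358022743099605985321899877948831174074928268943399909982222918162082779108497256 :=
  in_mul _ _ _ _ mm_179 (in_x 9 _ _ rX_9_1) (in_mul _ _ _ _ mm_178 (in_x 1 _ _ rX_1_2) (in_mul _ _ _ _ mm_177 (in_x 11 _ _ rX_11_1) (in_mul _ _ _ _ mm_176 (in_x 2 _ _ rX_2_2) (in_mul _ _ _ _ mm_175 (in_x 0 _ _ rX_0_3) (in_mul _ _ _ _ mm_174 (in_x 9 _ _ rX_9_1) (in_x 4 _ _ rX_4_1))))))

theorem ig_4 : In (chevG2.group K) 3784441670541609760664205451368020978450389278282468287267473879802437466196302770933685655686263305108900802042789921 :=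
  in_mul _ _ _ _ mm_181 (in_x 11 _ _ rX_11_2) (in_mul _ _ _ _ mm_180 (in_x 6 _ _ rX_6_2) (in_x 4 _ _ rX_4_2))

theorem ig_5 : In (chevG2.group K) 2521730503216530417134562846635511249469164032536577167223165139158322049614504118237799146035574191340016635599650849 :=
  in_x 11 _ _ rX_11_2

theorem ig_all (k : ℕ) (hk : k < 6) : In (chevG2.group K) (cA k) := by
  interval_cases k
  exacts [ig_0, ig_1, ig_2, ig_3, ig_4, ig_5]

end Cfsg.Agent.Lib.Helper28.G2
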