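import Mathlib
import Cfsg.Agent.Lib.Helper28.G2Mat
import Cfsg.Agent.Lib.Helper19.TCUp
import Cfsg.Agent.Lib.Helper19.SuzP1
import Cfsg.Agent.Lib.Helper19.SuzP2
import Cfsg.Agent.Lib.Helper19.SuzP3
import Cfsg.Agent.Lib.Helper19.SuzP4
import Cfsg.Agent.Lib.Helper19.SuzP5
import Cfsg.Agent.Lib.Helper19.SuzP6

/-!
# The group `PG` presented on six involutions `c, d, a, b, e, f`

The relators are those of the presentation of the sporadic Suzuki group that do not involve `g`.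
The Todd–Coxeter certificates of helper19 for the chain `c, d, a, b, e, f` give
`|PG| ≤ 2·8·1·135·280·416 = 251596800`.
-/

set_option autoImplicit false

namespace Cfsg.Agent.Lib.Helper28.G2

open Cfsg.Agent.Lib.Helper56.TC (ew ew_nil ew_cons ew_append ew_congr)
open Cfsg.Agent.Lib.Helper19.Cox (L L_mono mem_L L_zero)

/-- the generator with index `i` (taken mod 6) -/
def gi (i : ℕ) : Fin 6 := Fin.ofNat 6 i

theorem gi_val (i : ℕ) : (gi i).val = i % 6 := rfl

theorem gi_fin (k : Fin 6) : gi k.val = k := by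
  apply Fin.ext
  rw [gi_val]
  exact Nat.mod_eq_of_lt k.isLt

/-- a word as an element of the free group -/
def wordF (w : List ℕ) : FreeGroup (Fin 6) := (w.map (fun i => FreeGroup.of (gi i))).prod

/-- the involution relators -/
def invW : List (List ℕ) := [[0, 0], [1, 1], [2, 2], [3, 3], [4, 4], [5, 5]]

/-- the relators of `PG` -/
def RG : Set (FreeGroup (Fin 6)) := {r | ∃ w ∈ invW ++ relW, r = wordF w}

/-- the presented group -/
abbrev PG : Type := PresentedGroup RG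

/-- the generators of `PG`, indexed by `ℕ` (mod 6) -/
noncomputable def u (i : ℕ) : PG := PresentedGroup.of (gi i)

theorem ew_hom {G H : Type*} [Monoid G] [Monoid H] (f : G →* H) (g : ℕ → G) (w : List ℕ) :
    f (ew g w) = ew (fun i => f (g i)) w := by
  induction w with
  | nil => simp [ew]
  | cons a w ih => rw [ew_cons, ew_cons, map_mul, ih]

theorem lift_wordF {H : Type*} [Group H] (f : Fin 6 → H) (w : List ℕ) :
    FreeGroup.lift f (wordF w) = ew (fun i => f (gi i)) w := by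
  induction w with
  | nil => simp [wordF, ew]
  | cons a w ih =>
    have e : wordF (a :: w) = FreeGroup.of (gi a) * wordF w := by simp [wordF]
    rw [e, map_mul, ih, ew_cons, FreeGroup.lift_apply_of]

theorem mk_wordF (w : List ℕ) : PresentedGroup.mk RG (wordF w) = ew u w := by
  induction w with
  | nil => simp [wordF, ew]
  | cons a w ih =>
    have e : wordF (a :: w) = FreeGroup.of (gi a) * wordF w := by simp [wordF]
    rw [e, map_mul, ih, ew_cons]
    rfl

theorem u_rel : ∀ w ∈ invW ++ relW, ew u w = 1 := by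
  intro w hw
  rw [← mk_wordF]
  exact PresentedGroup.one_of_mem ⟨w, hw, rfl⟩

theorem u_mod (i : ℕ) : u (i % 6) = u i := by
  unfold u
  congr 1
  apply Fin.ext
  rw [gi_val, gi_val, Nat.mod_mod]

theorem u_sq (i : ℕ) : u i * u i = 1 := by
  rw [← u_mod i]
  have h : i % 6 < 6 := Nat.mod_lt _ (by norm_num)
  have key : ∀ j < 6, u j * u j = 1 := by
    intro j hj
    have hm : [j, j] ∈ invW ++ relW := by
      apply List.mem_append_left
      interval_cases j <;> decide
    have := u_rel _ hm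
    simpa [ew] using this
  exact key _ h

/-- the homomorphism from `PG` defined by six elements satisfying the relators -/
noncomputable def homPG {H : Type*} [Group H] (t : ℕ → H)
    (ht : ∀ w ∈ invW ++ relW, ew (fun i => t (i % 6)) w = 1) : PG →* H :=
  PresentedGroup.toGroup (rels := RG) (f := fun k : Fin 6 => t k.val) (by
    rintro r ⟨w, hw, rfl⟩
    rw [lift_wordF]
    exact ht w hw)

theorem homPG_u {H : Type*} [Group H] (t : ℕ → H)
    (ht : ∀ w ∈ invW ++ relW, ew (fun i => t (i % 6)) w = 1) (i : ℕ) :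
    homPG t ht (u i) = t (i % 6) := by
  unfold homPG u
  rw [PresentedGroup.toGroup.of]
  rfl

theorem closure_u : Subgroup.closure (u '' Set.Iio 6) = ⊤ := by
  have h := PresentedGroup.closure_range_of RG
  rw [← h]
  congr 1
  ext x
  constructor
  · rintro ⟨i, -, rfl⟩
    exact ⟨gi i, rfl⟩
  · rintro ⟨k, rfl⟩
    exact ⟨k.val, k.isLt, by unfold u; rw [gi_fin]⟩

theorem LG6 : L u 6 = ⊤ := closure_u

theorem relW_lt : ∀ w ∈ invW ++ relW, ∀ a ∈ w, a < 6 := by decide

theorem sub1 : ∀ w ∈ Cfsg.Agent.Lib.Helper19.SuzP1.T.rels1, w ∈ invW ++ relW := by decide +kernel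
theorem sub2 : ∀ w ∈ Cfsg.Agent.Lib.Helper19.SuzP2.T.rels1, w ∈ invW ++ relW := by decide +kernel
theorem sub3 : ∀ w ∈ Cfsg.Agent.Lib.Helper19.SuzP3.T.rels1, w ∈ invW ++ relW := by decide +kernel
theorem sub4 : ∀ w ∈ Cfsg.Agent.Lib.Helper19.SuzP4.T.rels1, w ∈ invW ++ relW := by decide +kernel
theorem sub5 : ∀ w ∈ Cfsg.Agent.Lib.Helper19.SuzP5.T.rels1, w ∈ invW ++ relW := by decide +kernel
theorem sub6 : ∀ w ∈ Cfsg.Agent.Lib.Helper19.SuzP6.T.rels1, w ∈ invW ++ relW := by decide +kernel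

open Cfsg.Agent.Lib.Helper19.TCU in
/-- the order bound from the Todd–Coxeter chain -/
theorem card_PG_le : Finite PG ∧ Nat.card PG ≤ 251596800 := by
  have h0 : Finite (L u 0) ∧ Nat.card (L u 0) ≤ 1 := by
    rw [L_zero]
    exact ⟨inferInstance, by simp⟩
  obtain ⟨f0, c0⟩ := h0
  obtain ⟨f1, c1⟩ := tc_step_upper u Cfsg.Agent.Lib.Helper19.SuzP1.T 0 Cfsg.Agent.Lib.Helper19.SuzP1.checked u_sq (fun w hw => u_rel w (sub1 w hw))
  obtain ⟨f2, c2⟩ := tc_step_upper u Cfsg.Agent.Lib.Helper19.SuzP2.T 1 Cfsg.Agent.Lib.Helper19.SuzP2.checked u_sq (fun w hw => u_rel w (sub2 w hw))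
  obtain ⟨f3, c3⟩ := tc_step_upper u Cfsg.Agent.Lib.Helper19.SuzP3.T 2 Cfsg.Agent.Lib.Helper19.SuzP3.checked u_sq (fun w hw => u_rel w (sub3 w hw))
  obtain ⟨f4, c4⟩ := tc_step_upper u Cfsg.Agent.Lib.Helper19.SuzP4.T 3 Cfsg.Agent.Lib.Helper19.SuzP4.checked u_sq (fun w hw => u_rel w (sub4 w hw))
  obtain ⟨f5, c5⟩ := tc_step_upper u Cfsg.Agent.Lib.Helper19.SuzP5.T 4 Cfsg.Agent.Lib.Helper19.SuzP5.checked u_sq (fun w hw => u_rel w (sub5 w hw))
  obtain ⟨f6, c6⟩ := tc_step_upper u Cfsg.Agent.Lib.Helper19.SuzP6.T 5 Cfsg.Agent.Lib.Helper19.SuzP6.checked u_sq (fun w hw => u_rel w (sub6 w hw))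
  have hN1 : Cfsg.Agent.Lib.Helper19.SuzP1.T.N = 2 := rfl
  have hN2 : Cfsg.Agent.Lib.Helper19.SuzP2.T.N = 8 := rfl
  have hN3 : Cfsg.Agent.Lib.Helper19.SuzP3.T.N = 1 := rfl
  have hN4 : Cfsg.Agent.Lib.Helper19.SuzP4.T.N = 135 := rfl
  have hN5 : Cfsg.Agent.Lib.Helper19.SuzP5.T.N = 280 := rfl
  have hN6 : Cfsg.Agent.Lib.Helper19.SuzP6.T.N = 416 := rfl
  rw [hN1] at c1; rw [hN2] at c2; rw [hN3] at c3; rw [hN4] at c4
  rw [hN5] at c5; rw [hN6] at c6
  have e : Nat.card PG = Nat.card (L u 6) := by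
    rw [LG6]
    exact (Nat.card_congr (Subgroup.topEquiv (G := PG)).toEquiv).symm
  have hfin : Finite PG := by
    have : Finite (⊤ : Subgroup PG) := by rw [← LG6]; exact f6
    exact Finite.of_equiv _ (Subgroup.topEquiv (G := PG)).toEquiv
  refine ⟨hfin, ?_⟩
  rw [e]
  have b1 : Nat.card (L u 1) ≤ 2 := by nlinarith
  have b2 : Nat.card (L u 2) ≤ 16 := by nlinarith
  have b3 : Nat.card (L u 3) ≤ 16 := by nlinarith
  have b4 : Nat.card (L u 4) ≤ 2160 := by nlinarith
  have b5 : Nat.card (L u 5) ≤ 604800 := by nlinarith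
  nlinarith

end Cfsg.Agent.Lib.Helper28.G2
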