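import Mathlib
import Cfsg.Agent.Lib.Helper18.ChevUnits
import Cfsg.Agent.Lib.Helper28.G2Root
import Cfsg.Agent.Lib.Helper28.G2Pres

/-!
# The homomorphism from `PG` to `GL₁₄(4)`

The six generators of `PG` go to the coded matrices of `G2Mat`; the relators hold by the kernel
evaluations there.  `In S c` says that the coded matrix `c` is the matrix of an element of the
subgroup `S`; it is used to show that the range of the homomorphism is the Chevalley group.
-/

set_option autoImplicit false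

namespace Cfsg.Agent.Lib.Helper28.G2

open Matrix Cfsg.Lie
open Cfsg.Agent.Lib.Helper19 (F4)
open Cfsg.Agent.Lib.Helper56.TC (ew ew_nil ew_cons ew_append ew_congr)
open Cfsg.Agent.Lib.Helper18 (xU coe_xU xU_mem_group)

theorem hD : chevG2 ∈ [chevG2, chevB2, chevD4, chevF4, chevE6, chevE7, chevE8] :=
  List.mem_cons_self

theorem A_mod (k : ℕ) : A (k % 6) = A k := by
  unfold A
  rw [Nat.mod_mod]

theorem A_sq (k : ℕ) : A k * A k = 1 := by
  rw [← A_mod k]
  have h : k % 6 < 6 := Nat.mod_lt _ (by norm_num)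
  generalize k % 6 = j at h
  interval_cases j
  exacts [invA_0, invA_1, invA_2, invA_3, invA_4, invA_5]

/-- the generators as invertible matrices -/
def Mg (k : ℕ) : GL ι K :=
  ⟨rI (A k), rI (A k), by rw [← map_mul, A_sq, map_one], by rw [← map_mul, A_sq, map_one]⟩

theorem coe_Mg (k : ℕ) : ((Mg k : GL ι K) : Matrix ι ι K) = rI (A k) := rfl

theorem Mg_mod (k : ℕ) : Mg (k % 6) = Mg k := Units.ext (by rw [coe_Mg, coe_Mg, A_mod])

theorem relAll : ∀ w ∈ invW ++ relW, ew A w = 1 := by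
  intro w hw
  rcases List.mem_append.mp hw with h | h
  · simp only [invW, List.mem_cons, List.not_mem_nil, or_false] at h
    have key : ∀ k, ew A [k, k] = 1 := by
      intro k
      have e : ew A [k, k] = A k * A k := by simp [ew]
      rw [e, A_sq]
    rcases h with rfl | rfl | rfl | rfl | rfl | rfl <;> exact key _
  · exact relA w h

/-- the matrix of an invertible matrix, as a monoid homomorphism -/
def valHom : GL ι K →* Matrix ι ι K := Units.coeHom (Matrix ι ι K)

theorem ew_Mg (w : List ℕ) :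
    ((ew (fun i => Mg (i % 6)) w : GL ι K) : Matrix ι ι K) = rI (ew A w) := by
  have h1 := ew_hom valHom (fun i => Mg (i % 6)) w
  have h2 := ew_hom rI A w
  have e : (fun i => valHom (Mg (i % 6))) = fun i => rI (A i) := by
    funext i
    show ((Mg (i % 6) : GL ι K) : Matrix ι ι K) = rI (A i)
    rw [coe_Mg, A_mod]
  rw [e] at h1
  exact h1.trans h2.symm

theorem Mg_rel : ∀ w ∈ invW ++ relW, ew (fun i => Mg (i % 6)) w = 1 := by
  intro w hw
  apply Units.ext
  rw [ew_Mg, relAll w hw, map_one]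
  rfl

/-- the homomorphism from `PG` to the general linear group -/
noncomputable def γ : PG →* GL ι K := homPG Mg Mg_rel

theorem γ_u (i : ℕ) : γ (u i) = Mg i := by
  unfold γ
  rw [homPG_u, Mg_mod]

theorem γ_ew (w : List ℕ) : ((γ (ew u w) : GL ι K) : Matrix ι ι K) = rI (ew A w) := by
  rw [ew_hom γ u w]
  have e : (fun i => γ (u i)) = fun i => Mg (i % 6) := by
    funext i
    rw [γ_u, Mg_mod]
  rw [e, ew_Mg]

/-- the coded matrix `c` is the matrix of an element of the subgroup `S` -/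
def In (S : Subgroup (GL ι K)) (c : ℕ) : Prop :=
  ∃ g ∈ S, ((g : GL ι K) : Matrix ι ι K) = rI (mN c)

theorem in_word (w : List ℕ) (c : ℕ) (h : ew A w = mN c) : In γ.range c :=
  ⟨γ (ew u w), ⟨_, rfl⟩, by rw [γ_ew, h]⟩

theorem in_mul (S : Subgroup (GL ι K)) (c1 c2 c3 : ℕ) (h : mN c1 * mN c2 = mN c3) :
    In S c1 → In S c2 → In S c3 := by
  rintro ⟨g1, h1, e1⟩ ⟨g2, h2, e2⟩
  exact ⟨g1 * g2, S.mul_mem h1 h2, by rw [Units.val_mul, e1, e2, ← map_mul, h]⟩

theorem in_conj (S : Subgroup (GL ι K)) (cn cx cy cz : ℕ) (h1 : mN cn * mN cx = mN cz)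
    (h2 : mN cy * mN cn = mN cz) : In S cn → In S cx → In S cy := by
  rintro ⟨gn, hn, en⟩ ⟨gx, hx, ex⟩
  refine ⟨gn * gx * gn⁻¹, S.mul_mem (S.mul_mem hn hx) (S.inv_mem hn), ?_⟩
  have e : rI (mN cy) * (gn : Matrix ι ι K) = (gn : Matrix ι ι K) * (gx : Matrix ι ι K) := by
    rw [en, ex, ← map_mul, ← map_mul, h1, h2]
  rw [Units.val_mul, Units.val_mul, ← e, mul_assoc, ← Units.val_mul, mul_inv_cancel,
    Units.val_one, mul_one]

theorem in_x (r : ℕ) (t : K) (c : ℕ) (hX : rI (mN c) = chevG2.x K r t) :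
    In (chevG2.group K) c :=
  ⟨xU chevG2 hD r t, xU_mem_group chevG2 hD r t, by rw [coe_xU, hX]⟩

theorem xU_of_in (S : Subgroup (GL ι K)) (r : ℕ) (t : K) (c : ℕ)
    (hX : rI (mN c) = chevG2.x K r t) : In S c → xU chevG2 hD r t ∈ S := by
  rintro ⟨g, hg, e⟩
  have h : xU chevG2 hD r t = g := Units.ext (by rw [coe_xU, e, hX])
  rw [h]
  exact hg

theorem xU_zero_mem (S : Subgroup (GL ι K)) (r : ℕ) (hr : r < 12) :
    xU chevG2 hD r F4.z ∈ S := by
  have h : xU chevG2 hD r F4.z = 1 := Units.ext (by rw [coe_xU]; exact x_zero r hr)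
  rw [h]
  exact S.one_mem

end Cfsg.Agent.Lib.Helper28.G2
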