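import Mathlib
import Cfsg.Prelude.Def_Spor_Suz
import Cfsg.Agent.Lib.Helper17.ChevOrbit
import Cfsg.Agent.Lib.Helper19.SuzPres
import Cfsg.Agent.Lib.Helper28.G2Gen
import Cfsg.Agent.S1059
import Cfsg.Agent.S1680

/-!
# The subgroup `⟨a, …, f⟩` of the presented Suzuki group is `G₂(4)`

The group `PG` presented by the relators of the Suzuki presentation not involving `g` maps onto
`⟨a, …, f⟩` (the relators hold there) and onto the Chevalley group `G₂(4)` (by the explicit
matrices of `G2Mat`, which generate all root subgroups).  The Todd–Coxeter bound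
`|PG| ≤ 251596800 = |G₂(4)| = |Suz| / 1782` makes both maps isomorphisms.
-/

set_option autoImplicit false

namespace Cfsg.Agent.Lib.Helper28.G2

open Matrix Cfsg.Lie Cfsg.Spor
open Cfsg.Agent.Lib.Helper19 (F4)
open Cfsg.Agent.Lib.Helper56.TC (ew ew_nil ew_cons ew_append ew_congr)
open Cfsg.Agent.Lib.Helper19.Cox (L L_mono mem_L L_zero)

/-! ### The range of `γ` is the Chevalley group -/

theorem Mg_mem (k : ℕ) (hk : k < 6) : Mg k ∈ chevG2.group K := by
  obtain ⟨g, hg, e⟩ := ig_all k hk
  have h : Mg k = g := by
    apply Units.ext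
    rw [coe_Mg, e]
    unfold A
    rw [Nat.mod_eq_of_lt hk]
  rw [h]
  exact hg

theorem range_γ : γ.range = chevG2.group K := by
  apply le_antisymm
  · rw [MonoidHom.range_eq_map, ← closure_u, MonoidHom.map_closure, Subgroup.closure_le]
    rintro _ ⟨_, ⟨i, hi, rfl⟩, rfl⟩
    have hi' : i < 6 := hi
    rw [γ_u]
    exact Mg_mem i hi'
  · exact Cfsg.Agent.Lib.Helper17.group_le_of_xIn chevG2 hD γ.range (fun r hr => xin_all r hr)

theorem card_G : Nat.card (chevG2.group K) = 251596800 := by
  have h := Cfsg.Agent.S1059.result (F := K) (q := 4) F4.card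
  rw [h]
  norm_num

/-! ### The homomorphism to the presented Suzuki group -/

/-- the relators of the presentation of the Suzuki group -/
abbrev RS : Set (FreeGroup Suz.Gen) := coxRelators Suz.edges ∪ {r | r ∈ Suz.extra}

/-- the generators `c, d, a, b, e, f, g` of the presented Suzuki group -/
noncomputable abbrev us : ℕ → PresentedGroup RS := Cfsg.Agent.Lib.Helper19.SuzPres.u

theorem relW_sub : ∀ w ∈ relW, w ∈ Cfsg.Agent.Lib.Helper19.SuzPres.RU := by decide +kernel

theorem us_rel : ∀ w ∈ invW ++ relW, ew (fun i => us (i % 6)) w = 1 := by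
  intro w hw
  have e : ew (fun i => us (i % 6)) w = ew us w := by
    apply ew_congr
    intro a ha
    show us (a % 6) = us a
    rw [Nat.mod_eq_of_lt (relW_lt w hw a ha)]
  rw [e]
  rcases List.mem_append.mp hw with h | h
  · simp only [invW, List.mem_cons, List.not_mem_nil, or_false] at h
    have key : ∀ k, ew us [k, k] = 1 := by
      intro k
      have e : ew us [k, k] = us k * us k := by rw [ew_cons, ew_cons, ew_nil, mul_one]
      rw [e]
      exact Cfsg.Agent.Lib.Helper19.SuzPres.hu k
    rcases h with rfl | rfl | rfl | rfl | rfl | rfl <;> exact key _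
  · exact Cfsg.Agent.Lib.Helper19.SuzPres.relU w (relW_sub w h)

/-- the homomorphism from `PG` to the presented Suzuki group -/
noncomputable def α : PG →* PresentedGroup RS := homPG us us_rel

theorem α_u (i : ℕ) : α (u i) = us (i % 6) := homPG_u us us_rel i

theorem range_α : α.range = L us 6 := by
  rw [MonoidHom.range_eq_map, ← closure_u, MonoidHom.map_closure]
  unfold L
  congr 1
  ext x
  constructor
  · rintro ⟨_, ⟨i, hi, rfl⟩, rfl⟩
    have hi' : i < 6 := hi
    exact ⟨i, hi, by rw [α_u, Nat.mod_eq_of_lt hi']⟩
  · rintro ⟨i, hi, rfl⟩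
    have hi' : i < 6 := hi
    exact ⟨u i, ⟨i, hi, rfl⟩, by rw [α_u, Nat.mod_eq_of_lt hi']⟩

/-- the subgroup of the statement -/
noncomputable abbrev HS : Subgroup (PresentedGroup RS) :=
  (Subgroup.closure ({Suz.a, Suz.b, Suz.c, Suz.d, Suz.e, Suz.f} : Set (FreeGroup Suz.Gen))).map
    (PresentedGroup.mk RS)

theorem HS_eq : HS = L us 6 := Cfsg.Agent.Lib.Helper19.SuzPres.H_eq

/-! ### Orders -/

theorem card_L6 : Nat.card (L us 6) = 251596800 := by
  have hidx : (L us 6).index = 1782 := by
    rw [← HS_eq]
    exact Cfsg.Agent.S1680.result.1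
  have h : Nat.card (L us 6) * (L us 6).index = Nat.card (PresentedGroup RS) :=
    Subgroup.card_mul_index _
  have h2 : Nat.card (L us 6) * 1782 = 251596800 * 1782 := by
    calc Nat.card (L us 6) * 1782 = Nat.card (L us 6) * (L us 6).index := by rw [hidx]
      _ = Nat.card (PresentedGroup RS) := h
      _ = 448345497600 := Cfsg.Agent.Lib.Helper19.SuzPres.main.2
      _ = 251596800 * 1782 := by norm_num
  exact Nat.eq_of_mul_eq_mul_right (by norm_num) h2

theorem card_PG : Nat.card PG = 251596800 := by
  have := card_PG_le.1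
  apply le_antisymm card_PG_le.2
  have h : Nat.card α.range ≤ Nat.card PG :=
    Nat.card_le_card_of_surjective _ α.rangeRestrict_surjective
  have e : Nat.card α.range = 251596800 := by
    rw [range_α]
    exact card_L6
  rw [e] at h
  exact h

theorem α_injective : Function.Injective α := by
  have := card_PG_le.1
  have e : Nat.card α.range = 251596800 := by
    rw [range_α]
    exact card_L6
  have hb : Function.Bijective α.rangeRestrict :=
    α.rangeRestrict_surjective.bijective_of_nat_card_le (by rw [e, card_PG])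
  intro x y hxy
  apply hb.1
  exact Subtype.ext hxy

theorem γ_injective : Function.Injective γ := by
  have := card_PG_le.1
  have e : Nat.card γ.range = 251596800 := by
    rw [range_γ]
    exact card_G
  have hb : Function.Bijective γ.rangeRestrict :=
    γ.rangeRestrict_surjective.bijective_of_nat_card_le (by rw [e, card_PG])
  intro x y hxy
  apply hb.1
  exact Subtype.ext hxy

/-- `PG` is isomorphic to the subgroup `⟨a, …, f⟩` of the presented Suzuki group -/
noncomputable def eqvH : PG ≃* HS :=
  (MonoidHom.ofInjective α_injective).trans (MulEquiv.subgroupCongr (range_α.trans HS_eq.symm))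

/-- `PG` is isomorphic to the Chevalley group `G₂(4)` -/
noncomputable def eqvG : PG ≃* chevG2.group K :=
  (MonoidHom.ofInjective γ_injective).trans (MulEquiv.subgroupCongr range_γ)

theorem main : Nonempty (HS ≃* chevG2.group K) := ⟨eqvH.symm.trans eqvG⟩

end Cfsg.Agent.Lib.Helper28.G2
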