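import Cfsg.Agent.Lib.Helper28.O7P7D

set_option autoImplicit false
set_option maxRecDepth 1000000

namespace Cfsg.Agent.Lib.Helper28.O7P7

open Cfsg.Agent.Lib.Helper56.TC Cfsg.Agent.Lib.Helper56.TC.Tabs

theorem cN_0 : allRange (fun x => forceN T.chkName x) 0 300 = true := by decide +kernel
theorem cN_300 : allRange (fun x => forceN T.chkName x) 300 300 = true := by decide +kernel
theorem cN_600 : allRange (fun x => forceN T.chkName x) 600 300 = true := by decide +kernel
theorem cN_900 : allRange (fun x => forceN T.chkName x) 900 300 = true := by decide +kernel
theorem cN_1200 : allRange (fun x => forceN T.chkName x) 1200 123 = true := by decide +kernel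
theorem cF_0 : allRange (fun x => forceN T.chkFinName x) 0 100 = true := by decide +kernel
theorem cF_100 : allRange (fun x => forceN T.chkFinName x) 100 100 = true := by decide +kernel
theorem cF_200 : allRange (fun x => forceN T.chkFinName x) 200 43 = true := by decide +kernel

end Cfsg.Agent.Lib.Helper28.O7P7
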