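import Mathlib
import Cfsg.Prelude.Def_Classical
import Cfsg.Prelude.Def_ClassicalGeometry
import Cfsg.Agent.Lib.Helper14.Forms
import Cfsg.Agent.Lib.Helper14.Isom
import Cfsg.Agent.Lib.Helper28.O7Pres

/-!
# `P8` maps onto `PΩ₇(3)`

The eight generators of `P8` go to negated reflections `-r_v` (`Q v = -1`) of the quadratic space
`x₀² + x₁y₁ + x₂y₂ + x₃y₃` over `ZMod 3`.  The image contains every `-r_v` with `Q v = -1` (orbit
certificate), so it is normal in the isometry group; `P8` is perfect, so the image lies in `Ω`.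
-/

set_option autoImplicit false

namespace Cfsg.Agent.Lib.Helper28.O7

open Matrix
open Cfsg.Agent.Lib.Helper14
open Cfsg.Agent.Lib.Helper56.TC (ew ew_nil ew_cons ew_append ew_congr)

/-- the index type of the quadratic space -/
abbrev ι : Type := Unit ⊕ (Fin 3 ⊕ Fin 3)

/-- coordinates: `0 ↦ x₀`, `1, 2, 3 ↦ x_i`, `4, 5, 6 ↦ y_i` -/
def e7 : Fin 7 ≃ ι where
  toFun := ![Sum.inl (), Sum.inr (Sum.inl 0), Sum.inr (Sum.inl 1), Sum.inr (Sum.inl 2),
    Sum.inr (Sum.inr 0), Sum.inr (Sum.inr 1), Sum.inr (Sum.inr 2)]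
  invFun x := match x with
    | Sum.inl _ => 0
    | Sum.inr (Sum.inl k) => ⟨k.val + 1, by omega⟩
    | Sum.inr (Sum.inr k) => ⟨k.val + 4, by omega⟩
  left_inv := by decide
  right_inv := by decide

/-- the quadratic form as a function -/
abbrev Qo : (ι → ZMod 3) → ZMod 3 := Cfsg.quadFormOdd 3 (ZMod 3)

/-- the quadratic form as a `QuadraticForm` -/
noncomputable abbrev Qf : QuadraticForm (ZMod 3) (ι → ZMod 3) := oddQF 3 (ZMod 3)

theorem Qf_coe : ⇑Qf = Qo := oddQF_coe 3 (ZMod 3)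

theorem Qo_eq (x : ι → ZMod 3) : Qo x = Q7 (x ∘ e7) := by
  simp [Qo, Cfsg.quadFormOdd, Q7, Fin.sum_univ_three, e7]
  ring

/-- the negated reflection in a vector of norm `-1` -/
def nrm (v : ι → ZMod 3) : Matrix ι ι (ZMod 3) :=
  -1 - Matrix.vecMulVec v (Cfsg.polarVec Qo v)

theorem nrm_mulVec (v x : ι → ZMod 3) :
    nrm v *ᵥ x = -x - QuadraticMap.polar Qo v x • v := by
  unfold nrm
  have h := polarVec_dotProduct Qf v x
  rw [Qf_coe] at h
  rw [sub_mulVec, neg_mulVec, one_mulVec, vecMulVec_mulVec, h]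
  simp only [op_smul_eq_smul]

theorem nrm_isom (v : ι → ZMod 3) (hv : Qo v = -1) (x : ι → ZMod 3) :
    Qo (nrm v *ᵥ x) = Qo x := by
  rw [nrm_mulVec]
  have h := quad_sub_smul Qf (-x) v (QuadraticMap.polar Qo v x)
  have h1 : Qf (-x) = Qf x := QuadraticMap.map_neg Qf x
  have h2 : QuadraticMap.polar (⇑Qf) (-x) v = - QuadraticMap.polar (⇑Qf) v x := by
    rw [QuadraticMap.polar_neg_left, QuadraticMap.polar_comm]
  rw [h1, h2] at h
  rw [Qf_coe] at h
  rw [h, hv]
  ring

theorem nrm_conj (S : Matrix ι ι (ZMod 3)) (hS : ∀ x, Qo (S *ᵥ x) = Qo x) (v : ι → ZMod 3) :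
    S * nrm v = nrm (S *ᵥ v) * S := by
  rw [ext_iff_mulVec]
  intro x
  have hp := polar_mulVec Qf S (by rw [Qf_coe]; exact hS) v x
  rw [Qf_coe] at hp
  rw [← mulVec_mulVec, ← mulVec_mulVec, nrm_mulVec, nrm_mulVec, mulVec_sub, mulVec_neg,
    mulVec_smul, hp]

/-- transport of matrices from `Fin 7` to the index type of the quadratic space -/
def rI : Matrix (Fin 7) (Fin 7) (ZMod 3) →* Matrix ι ι (ZMod 3) where
  toFun X := X.submatrix e7.symm e7.symm
  map_one' := Matrix.submatrix_one_equiv e7.symm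
  map_mul' X Y := (Matrix.submatrix_mul_equiv X Y e7.symm e7.symm e7.symm).symm

theorem rI_injective : Function.Injective rI := by
  intro X Y h
  ext i j
  have := congrFun (congrFun h (e7 i)) (e7 j)
  simpa [rI] using this

theorem rI_mulVec (X : Matrix (Fin 7) (Fin 7) (ZMod 3)) (x : ι → ZMod 3) :
    (rI X *ᵥ x) ∘ e7 = X *ᵥ (x ∘ e7) := by
  have h := Matrix.submatrix_mulVec_equiv X x e7.symm e7.symm
  have h' : rI X *ᵥ x = (X *ᵥ (x ∘ e7)) ∘ e7.symm := h
  rw [h']
  funext i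
  simp

/-- the generator vectors -/
def vι (k : ℕ) : ι → ZMod 3 := vN (cV k) ∘ e7.symm

theorem rI_A (k : ℕ) (hk : k < 8) : rI (A k) = nrm (vι k) := by
  interval_cases k <;> decide +kernel

theorem Qo_vι (k : ℕ) (hk : k < 8) : Qo (vι k) = -1 := by
  rw [Qo_eq]
  have : vι k ∘ e7 = vN (cV k) := by
    funext i
    simp [vι]
  rw [this]
  exact QV k hk

theorem A_mod (k : ℕ) : A (k % 8) = A k := by
  unfold A
  rw [Nat.mod_mod]

theorem A_sq (k : ℕ) : A k * A k = 1 := by
  rw [← A_mod k]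
  have h : k % 8 < 8 := Nat.mod_lt _ (by norm_num)
  generalize k % 8 = j at h
  interval_cases j
  exacts [invA_0, invA_1, invA_2, invA_3, invA_4, invA_5, invA_6, invA_7]

theorem rI_A_sq (k : ℕ) : rI (A k) * rI (A k) = 1 := by
  rw [← map_mul, A_sq, map_one]

theorem rI_A_isom (k : ℕ) (x : ι → ZMod 3) : Qo (rI (A k) *ᵥ x) = Qo x := by
  rw [← A_mod k]
  have h : k % 8 < 8 := Nat.mod_lt _ (by norm_num)
  rw [rI_A _ h]
  exact nrm_isom _ (Qo_vι _ h) x

/-- the isometry group -/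
abbrev O7 : Subgroup (Matrix.GeneralLinearGroup ι (ZMod 3)) := Cfsg.isometryGroup (ZMod 3) Qo

/-- the matrix of an isometry, as a monoid homomorphism -/
def coeM : ↥O7 →* Matrix ι ι (ZMod 3) :=
  (Units.coeHom (Matrix ι ι (ZMod 3))).comp O7.subtype

theorem coeM_injective : Function.Injective coeM := by
  intro g h H
  exact isom_ext H

theorem coeM_isom (g : ↥O7) (x : ι → ZMod 3) : Qo (coeM g *ᵥ x) = Qo x :=
  isom_preserves g x

/-- the generators as isometries -/
def Mu (k : ℕ) : ↥O7 :=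
  ⟨⟨rI (A k), rI (A k), rI_A_sq k, rI_A_sq k⟩,
    (mem_isometryGroup_iff Qo _).mpr (rI_A_isom k)⟩

theorem coeM_Mu (k : ℕ) : coeM (Mu k) = rI (A k) := rfl

theorem Mu_mod (k : ℕ) : Mu (k % 8) = Mu k := by
  apply coeM_injective
  rw [coeM_Mu, coeM_Mu, A_mod]

theorem Mu_sq (k : ℕ) : Mu k * Mu k = 1 := by
  apply coeM_injective
  rw [map_mul, coeM_Mu, rI_A_sq, map_one]

theorem Mu_inv (k : ℕ) : (Mu k)⁻¹ = Mu k := inv_eq_of_mul_eq_one_left (Mu_sq k)

theorem relAll : ∀ w ∈ invW ++ relW, ew A w = 1 := by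
  intro w hw
  rcases List.mem_append.mp hw with h | h
  · simp only [invW, List.mem_cons, List.not_mem_nil, or_false] at h
    rcases h with rfl | rfl | rfl | rfl | rfl | rfl | rfl | rfl
    · simpa [ew] using invA_0
    · simpa [ew] using invA_1
    · simpa [ew] using invA_2
    · simpa [ew] using invA_3
    · simpa [ew] using invA_4
    · simpa [ew] using invA_5
    · simpa [ew] using invA_6
    · simpa [ew] using invA_7
  · exact relA w h

theorem Mu_rel : ∀ w ∈ invW ++ relW, ew (fun i => Mu (i % 8)) w = 1 := by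
  intro w hw
  apply coeM_injective
  rw [ew_hom, map_one]
  have e : (fun i => coeM (Mu (i % 8))) = fun i => rI (A i) := by
    funext i
    rw [coeM_Mu, A_mod]
  rw [e, ← ew_hom rI A w, relAll w hw, map_one]

/-- the homomorphism from `P8` to the isometry group -/
noncomputable def β : P8 →* ↥O7 := homP8 Mu Mu_rel

theorem β_u (i : ℕ) : β (u i) = Mu i := by
  unfold β
  rw [homP8_u, Mu_mod]

/-! ### `P8` is perfect -/

theorem comm_edge {C : Type*} [CommGroup C] (x y : C) (hx : x * x = 1) (hy : y * y = 1)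
    (h : x * (y * (x * (y * (x * (y * 1))))) = 1) : x = y := by
  have e : x * (y * (x * (y * (x * (y * 1))))) = (x * x) * (y * y) * (x * y) := by
    simp only [mul_one, mul_assoc, mul_left_comm, mul_comm]
  rw [e, hx, hy, one_mul, one_mul] at h
  calc x = x * (y * y) := by rw [hy, mul_one]
    _ = (x * y) * y := by rw [mul_assoc]
    _ = y := by rw [h, one_mul]

/-- images of the generators in the abelianization -/
noncomputable def ab (i : ℕ) : Abelianization P8 := Abelianization.of (u i)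

theorem ab_rel (w : List ℕ) (hw : w ∈ invW ++ relW) : ew ab w = 1 := by
  have h := ew_hom (Abelianization.of (G := P8)) u w
  rw [u_rel w hw, map_one] at h
  exact h.symm

theorem ab_sq (i : ℕ) : ab i * ab i = 1 := by
  unfold ab
  rw [← map_mul, u_sq, map_one]

theorem ab_edge (i j : ℕ) (hw : [i, j, i, j, i, j] ∈ invW ++ relW) : ab i = ab j := by
  have h := ab_rel _ hw
  simp only [ew_cons, ew_nil] at h
  exact comm_edge _ _ (ab_sq i) (ab_sq j) h

theorem ew_const {C : Type*} [Monoid C] (t : C) (w : List ℕ) : ew (fun _ => t) w = t ^ w.length := by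
  induction w with
  | nil => simp [ew]
  | cons a w ih => rw [ew_cons, ih, List.length_cons, pow_succ']

theorem ab_one (i : ℕ) (hi : i < 8) : ab i = 1 := by
  have e01 : ab 0 = ab 1 := ab_edge 0 1 (by decide)
  have e12 : ab 1 = ab 2 := ab_edge 1 2 (by decide)
  have e23 : ab 2 = ab 3 := ab_edge 2 3 (by decide)
  have e25 : ab 2 = ab 5 := ab_edge 2 5 (by decide)
  have e34 : ab 3 = ab 4 := ab_edge 3 4 (by decide)
  have e47 : ab 4 = ab 7 := ab_edge 4 7 (by decide)
  have e56 : ab 5 = ab 6 := ab_edge 5 6 (by decide)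
  have hall : ∀ a < 8, ab a = ab 0 := by
    intro a ha
    interval_cases a
    · rfl
    · exact e01.symm
    · rw [← e12, ← e01]
    · rw [← e23, ← e12, ← e01]
    · rw [← e34, ← e23, ← e12, ← e01]
    · rw [← e25, ← e12, ← e01]
    · rw [← e56, ← e25, ← e12, ← e01]
    · rw [← e47, ← e34, ← e23, ← e12, ← e01]
  have hE : ew ab (List.flatten (List.replicate 9 [0, 1, 2, 3, 4, 7, 5])) = 1 :=
    ab_rel _ (by decide)
  have hc : ew ab (List.flatten (List.replicate 9 [0, 1, 2, 3, 4, 7, 5]))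
      = ew (fun _ => ab 0) (List.flatten (List.replicate 9 [0, 1, 2, 3, 4, 7, 5])) := by
    apply ew_congr
    intro a ha
    exact hall a (by revert a; decide)
  rw [hc, ew_const] at hE
  have hlen : (List.flatten (List.replicate 9 [0, 1, 2, 3, 4, 7, 5])).length = 63 := by decide
  rw [hlen] at hE
  have h0 : ab 0 = 1 := by
    have h2 : ab 0 ^ 2 = 1 := by rw [sq]; exact ab_sq 0
    have e : ab 0 ^ 63 = (ab 0 ^ 2) ^ 31 * ab 0 := by rw [← pow_mul, ← pow_succ]
    rw [e, h2, one_pow, one_mul] at hE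
    exact hE
  rw [hall i hi, h0]

theorem P8_perfect : commutator P8 = ⊤ := by
  rw [eq_top_iff, ← closure_u, Subgroup.closure_le]
  rintro _ ⟨i, hi, rfl⟩
  have h : Abelianization.of (u i) = 1 := ab_one i hi
  have hk : u i ∈ (Abelianization.of (G := P8)).ker := h
  rwa [Abelianization.ker_of] at hk

/-! ### The image contains all negated reflections of norm `-1` -/

theorem vC_lt (w : Fin 7 → ZMod 3) : vC w < 2187 := by
  have h (i : Fin 7) : (w i).val < 3 := ZMod.val_lt (w i)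
  have h0 := h 0; have h1 := h 1; have h2 := h 2; have h3 := h 3
  have h4 := h 4; have h5 := h 5; have h6 := h 6
  unfold vC
  omega

theorem vN_vC (w : Fin 7 → ZMod 3) : vN (vC w) = w := by
  have h (i : Fin 7) : (w i).val < 3 := ZMod.val_lt (w i)
  have h0 := h 0; have h1 := h 1; have h2 := h 2; have h3 := h 3
  have h4 := h 4; have h5 := h 5; have h6 := h 6
  have e0 : vC w / 1 % 3 = (w 0).val := by unfold vC; omega
  have e1 : vC w / 3 % 3 = (w 1).val := by unfold vC; omega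
  have e2 : vC w / 9 % 3 = (w 2).val := by unfold vC; omega
  have e3 : vC w / 27 % 3 = (w 3).val := by unfold vC; omega
  have e4 : vC w / 81 % 3 = (w 4).val := by unfold vC; omega
  have e5 : vC w / 243 % 3 = (w 5).val := by unfold vC; omega
  have e6 : vC w / 729 % 3 = (w 6).val := by unfold vC; omega
  funext i
  fin_cases i
  · show ((vC w / 1 % 3 : ℕ) : ZMod 3) = w 0
    rw [e0]; exact ZMod.natCast_zmod_val _
  · show ((vC w / 3 % 3 : ℕ) : ZMod 3) = w 1
    rw [e1]; exact ZMod.natCast_zmod_val _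
  · show ((vC w / 9 % 3 : ℕ) : ZMod 3) = w 2
    rw [e2]; exact ZMod.natCast_zmod_val _
  · show ((vC w / 27 % 3 : ℕ) : ZMod 3) = w 3
    rw [e3]; exact ZMod.natCast_zmod_val _
  · show ((vC w / 81 % 3 : ℕ) : ZMod 3) = w 4
    rw [e4]; exact ZMod.natCast_zmod_val _
  · show ((vC w / 243 % 3 : ℕ) : ZMod 3) = w 5
    rw [e5]; exact ZMod.natCast_zmod_val _
  · show ((vC w / 729 % 3 : ℕ) : ZMod 3) = w 6
    rw [e6]; exact ZMod.natCast_zmod_val _

theorem Mu_mem (k : ℕ) : Mu k ∈ β.range := ⟨u k, β_u k⟩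

theorem mem_range_of_nrm : ∀ n : ℕ, ∀ v : ι → ZMod 3, dep (vC (v ∘ e7)) = n → Qo v = -1 →
    ∀ g : ↥O7, coeM g = nrm v → g ∈ β.range := by
  intro n
  induction n using Nat.strong_induction_on with
  | _ n ih =>
    intro v hn hv g hg
    have hc := orb_all (vC (v ∘ e7)) (vC_lt _)
    have hQ : Q7 (vN (vC (v ∘ e7))) = -1 := by rw [vN_vC, ← Qo_eq]; exact hv
    unfold orbOK at hc
    simp only [hQ, decide_true, Bool.not_true, Bool.false_or, Bool.or_eq_true, beq_iff_eq,
      decide_eq_true_eq] at hc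
    rcases hc with hc | hc
    · -- the root
      have hv0 : v = vι 0 := by
        have h1 : v ∘ e7 = vN (cV 0) := by
          rw [← vN_vC (v ∘ e7), hc]
          rfl
        funext a
        have := congrFun h1 (e7.symm a)
        simpa [vι] using this
      have : g = Mu 0 := by
        apply coeM_injective
        rw [hg, coeM_Mu, rI_A 0 (by norm_num), hv0]
      rw [this]
      exact Mu_mem 0
    · -- one step towards the root
      set j := gj (vC (v ∘ e7)) with hj
      rw [vN_vC, ← rI_mulVec] at hc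
      have hv' : Qo (rI (A j) *ᵥ v) = -1 := by rw [rI_A_isom]; exact hv
      have hg' : coeM (Mu j * g * (Mu j)⁻¹) = nrm (rI (A j) *ᵥ v) := by
        rw [Mu_inv, map_mul, map_mul, coeM_Mu, hg, nrm_conj (rI (A j)) (rI_A_isom j) v, mul_assoc,
          rI_A_sq, mul_one]
      have hmem := ih _ (by rw [← hn]; exact hc) (rI (A j) *ᵥ v) rfl hv' _ hg'
      have e : g = (Mu j)⁻¹ * (Mu j * g * (Mu j)⁻¹) * Mu j := by group
      rw [e]
      exact β.range.mul_mem (β.range.mul_mem (β.range.inv_mem (Mu_mem j)) hmem) (Mu_mem j)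

/-- the set of negated reflections of norm `-1` -/
def Dset : Set ↥O7 := {g | ∃ v : ι → ZMod 3, Qo v = -1 ∧ coeM g = nrm v}

theorem Dset_le : Dset ⊆ (β.range : Set ↥O7) := by
  rintro g ⟨v, hv, hg⟩
  exact mem_range_of_nrm _ v rfl hv g hg

theorem Mu_mem_Dset (k : ℕ) : Mu k ∈ Dset := by
  refine ⟨vι (k % 8), Qo_vι _ (Nat.mod_lt _ (by norm_num)), ?_⟩
  rw [← rI_A _ (Nat.mod_lt _ (by norm_num)), A_mod, coeM_Mu]

theorem Dset_conj (h g : ↥O7) (hg : g ∈ Dset) : h * g * h⁻¹ ∈ Dset := by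
  obtain ⟨v, hv, hgv⟩ := hg
  refine ⟨coeM h *ᵥ v, by rw [coeM_isom]; exact hv, ?_⟩
  have h1 : coeM h * coeM h⁻¹ = 1 := by rw [← map_mul, mul_inv_cancel, map_one]
  rw [map_mul, map_mul, hgv, nrm_conj (coeM h) (coeM_isom h) v, mul_assoc, h1, mul_one]

theorem range_eq_closure : β.range = Subgroup.closure Dset := by
  apply le_antisymm
  · rw [MonoidHom.range_eq_map, ← closure_u, MonoidHom.map_closure, Subgroup.closure_le]
    rintro _ ⟨_, ⟨i, -, rfl⟩, rfl⟩
    rw [β_u]
    exact Subgroup.subset_closure (Mu_mem_Dset i)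
  · rw [Subgroup.closure_le]
    exact Dset_le

theorem range_normal : β.range.Normal := by
  rw [range_eq_closure]
  refine ⟨fun n hn h => ?_⟩
  have hle : (Subgroup.closure Dset).map (MulAut.conj h).toMonoidHom ≤ Subgroup.closure Dset := by
    rw [MonoidHom.map_closure]
    apply Subgroup.closure_mono
    rintro _ ⟨g, hg, rfl⟩
    exact Dset_conj h g hg
  exact hle (Subgroup.mem_map_of_mem _ hn)

/-! ### The surjection onto `PΩ₇(3)` -/

theorem β_mem_Omega (x : P8) : β x ∈ Cfsg.Omega (ZMod 3) Qo := by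
  have hx : x ∈ commutator P8 := by rw [P8_perfect]; trivial
  have h1 : β x ∈ (commutator P8).map β := Subgroup.mem_map_of_mem β hx
  have h2 : (commutator P8).map β ≤ commutator ↥O7 := by
    unfold commutator
    rw [Subgroup.map_commutator]
    exact Subgroup.commutator_mono le_top le_top
  exact h2 h1

/-- `β` with values in `Ω` -/
noncomputable def β' : P8 →* ↥(Cfsg.Omega (ZMod 3) Qo) :=
  β.codRestrict (Cfsg.Omega (ZMod 3) Qo) β_mem_Omega

theorem β'_coe (x : P8) : ((β' x : ↥(Cfsg.Omega (ZMod 3) Qo)) : ↥O7) = β x := rfl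

/-- the homomorphism to `PΩ₇(3)` -/
noncomputable def γ : P8 →* Cfsg.POmega (ZMod 3) Qo :=
  (QuotientGroup.mk' (Subgroup.center ↥(Cfsg.Omega (ZMod 3) Qo))).comp β'

theorem γ_range_normal : γ.range.Normal := by
  refine ⟨fun y hy q => ?_⟩
  obtain ⟨x, rfl⟩ := hy
  obtain ⟨ω, rfl⟩ := QuotientGroup.mk'_surjective (Subgroup.center ↥(Cfsg.Omega (ZMod 3) Qo)) q
  have hn := range_normal.conj_mem (β x) ⟨x, rfl⟩ (ω : ↥O7)
  obtain ⟨z, hz⟩ := hn
  refine ⟨z, ?_⟩
  have e : β' z = ω * β' x * ω⁻¹ := by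
    apply Subtype.ext
    rw [β'_coe, hz]
    rfl
  show (QuotientGroup.mk' _) (β' z) = _
  rw [e]
  rfl

theorem γ_range_ne_bot : γ.range ≠ ⊥ := by
  intro hbot
  have h0 : β' (u 0) ∈ Subgroup.center ↥(Cfsg.Omega (ZMod 3) Qo) := by
    have : γ (u 0) ∈ γ.range := ⟨_, rfl⟩
    rw [hbot, Subgroup.mem_bot] at this
    exact (QuotientGroup.eq_one_iff _).mp this
  have hc := Subgroup.mem_center_iff.mp h0 (β' (u 1))
  have hc' : β (u 1) * β (u 0) = β (u 0) * β (u 1) := congrArg Subtype.val hc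
  rw [β_u, β_u] at hc'
  have hm := congrArg coeM hc'
  rw [map_mul, map_mul, coeM_Mu, coeM_Mu, ← map_mul, ← map_mul] at hm
  exact A01_ne (rI_injective hm).symm

end Cfsg.Agent.Lib.Helper28.O7
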