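import Cfsg.Agent.Lib.Helper28.U6FiD

set_option autoImplicit false
set_option maxRecDepth 1000000

namespace Cfsg.Agent.Lib.Helper28.U6

open Cfsg.Agent.Lib.Helper56 Cfsg.Agent.Lib.Helper56.TC Cfsg.Agent.Lib.Helper56.TC.Tabs

theorem chk_c2106 : allRange (fun x => forceN chkTr x) 2106 351 = true := by decide +kernel
theorem chk_c2457 : allRange (fun x => forceN chkTr x) 2457 351 = true := by decide +kernel

end Cfsg.Agent.Lib.Helper28.U6
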