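import Cfsg.Agent.Lib.Helper28.U6P8D

set_option autoImplicit false
set_option maxRecDepth 1000000

namespace Cfsg.Agent.Lib.Helper28.U6P8

open Cfsg.Agent.Lib.Helper56.TC Cfsg.Agent.Lib.Helper56.TC.Tabs

theorem cF_1100 : allRange (fun x => forceN T.chkFinName x) 1100 100 = true := by decide +kernel
theorem cF_1200 : allRange (fun x => forceN T.chkFinName x) 1200 100 = true := by decide +kernel
theorem cF_1300 : allRange (fun x => forceN T.chkFinName x) 1300 100 = true := by decide +kernel
theorem cF_1400 : allRange (fun x => forceN T.chkFinName x) 1400 8 = true := by decide +kernel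

end Cfsg.Agent.Lib.Helper28.U6P8
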