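import Cfsg.Agent.Lib.Helper19.TCUp
import Cfsg.Agent.Lib.Helper28.U6P8C0
import Cfsg.Agent.Lib.Helper28.U6P8C1
import Cfsg.Agent.Lib.Helper28.U6P8C2

set_option autoImplicit false
set_option maxRecDepth 1000000

namespace Cfsg.Agent.Lib.Helper28.U6P8

open Cfsg.Agent.Lib.Helper56.TC Cfsg.Agent.Lib.Helper56.TC.Tabs

theorem uN_300 : Upto T.chkName 300 := upto_add (upto_zero T.chkName) rfl cN_0
theorem uN_600 : Upto T.chkName 600 := upto_add uN_300 rfl cN_300
theorem uN_900 : Upto T.chkName 900 := upto_add uN_600 rfl cN_600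
theorem uN_1200 : Upto T.chkName 1200 := upto_add uN_900 rfl cN_900
theorem uN_1408 : Upto T.chkName 1408 := upto_add uN_1200 rfl cN_1200
theorem uF_100 : Upto T.chkFinName 100 := upto_add (upto_zero T.chkFinName) rfl cF_0
theorem uF_200 : Upto T.chkFinName 200 := upto_add uF_100 rfl cF_100
theorem uF_300 : Upto T.chkFinName 300 := upto_add uF_200 rfl cF_200
theorem uF_400 : Upto T.chkFinName 400 := upto_add uF_300 rfl cF_300
theorem uF_500 : Upto T.chkFinName 500 := upto_add uF_400 rfl cF_400
theorem uF_600 : Upto T.chkFinName 600 := upto_add uF_500 rfl cF_500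
theorem uF_700 : Upto T.chkFinName 700 := upto_add uF_600 rfl cF_600
theorem uF_800 : Upto T.chkFinName 800 := upto_add uF_700 rfl cF_700
theorem uF_900 : Upto T.chkFinName 900 := upto_add uF_800 rfl cF_800
theorem uF_1000 : Upto T.chkFinName 1000 := upto_add uF_900 rfl cF_900
theorem uF_1100 : Upto T.chkFinName 1100 := upto_add uF_1000 rfl cF_1000
theorem uF_1200 : Upto T.chkFinName 1200 := upto_add uF_1100 rfl cF_1100
theorem uF_1300 : Upto T.chkFinName 1300 := upto_add uF_1200 rfl cF_1200
theorem uF_1400 : Upto T.chkFinName 1400 := upto_add uF_1300 rfl cF_1300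
theorem uF_1408 : Upto T.chkFinName 1408 := upto_add uF_1400 rfl cF_1400

/-- The certificate is valid. -/
theorem checked : Cfsg.Agent.Lib.Helper19.TCU.Checked T 7 where
  hK := by decide +kernel
  hN := by decide +kernel
  hNN := by decide +kernel
  hinv := fun _ _ => rfl
  hsubs := by decide +kernel
  hrelK := by decide +kernel
  hrx := by decide +kernel
  hchk := uN_1408
  hfin := uF_1408

end Cfsg.Agent.Lib.Helper28.U6P8
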