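import Mathlib
import Cfsg.Agent.Lib.Helper28.U6Mat
import Cfsg.Agent.Lib.Helper19.TCUp
import Cfsg.Agent.Lib.Helper28.U6P1
import Cfsg.Agent.Lib.Helper28.U6P2
import Cfsg.Agent.Lib.Helper28.U6P3
import Cfsg.Agent.Lib.Helper28.U6P4
import Cfsg.Agent.Lib.Helper28.U6P5
import Cfsg.Agent.Lib.Helper28.U6P6
import Cfsg.Agent.Lib.Helper28.U6P7
import Cfsg.Agent.Lib.Helper28.U6P8

/-!
# The group `PH` presented on eight involutions `d, e, f, w, i, h, c, g`

The Coxeter relations of the diagram with edges `c–d, d–e, e–f, f–g, d–h, h–i, w–f, w–i`, the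
hexagon relation `(hdewfi)^4`, the `E₇` relation `(defihcg)^9` and the relation `(defwhg)^5`.
A Todd–Coxeter chain of certificates gives `|PH| ≤ 2·3·4·5·6·81·224·1408 = 18393661440`.
-/

set_option autoImplicit false

namespace Cfsg.Agent.Lib.Helper28.U6

open Cfsg.Agent.Lib.Helper56.TC (ew ew_nil ew_cons ew_append ew_congr)
open Cfsg.Agent.Lib.Helper19.Cox (L L_mono mem_L L_zero)

/-- the generator with index `i` (taken mod 8) -/
def gi (i : ℕ) : Fin 8 := Fin.ofNat 8 i

theorem gi_val (i : ℕ) : (gi i).val = i % 8 := rfl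

theorem gi_fin (k : Fin 8) : gi k.val = k := by
  apply Fin.ext
  rw [gi_val]
  exact Nat.mod_eq_of_lt k.isLt

/-- a word as an element of the free group -/
def wordF (w : List ℕ) : FreeGroup (Fin 8) := (w.map (fun i => FreeGroup.of (gi i))).prod

/-- the involution relators -/
def invW : List (List ℕ) := [[0, 0], [1, 1], [2, 2], [3, 3], [4, 4], [5, 5], [6, 6], [7, 7]]

/-- the relators of `PH` -/
def RH : Set (FreeGroup (Fin 8)) := {r | ∃ w ∈ invW ++ relW, r = wordF w}

/-- the presented group -/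
abbrev PH : Type := PresentedGroup RH

/-- the generators of `PH`, indexed by `ℕ` (mod 8) -/
noncomputable def u (i : ℕ) : PH := PresentedGroup.of (gi i)

theorem ew_hom {G H : Type*} [Monoid G] [Monoid H] (f : G →* H) (g : ℕ → G) (w : List ℕ) :
    f (ew g w) = ew (fun i => f (g i)) w := by
  induction w with
  | nil => simp [ew]
  | cons a w ih => rw [ew_cons, ew_cons, map_mul, ih]

theorem lift_wordF {H : Type*} [Group H] (f : Fin 8 → H) (w : List ℕ) :
    FreeGroup.lift f (wordF w) = ew (fun i => f (gi i)) w := by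
  induction w with
  | nil => simp [wordF, ew]
  | cons a w ih =>
    have e : wordF (a :: w) = FreeGroup.of (gi a) * wordF w := by simp [wordF]
    rw [e, map_mul, ih, ew_cons, FreeGroup.lift_apply_of]

theorem mk_wordF (w : List ℕ) : PresentedGroup.mk RH (wordF w) = ew u w := by
  induction w with
  | nil => simp [wordF, ew]
  | cons a w ih =>
    have e : wordF (a :: w) = FreeGroup.of (gi a) * wordF w := by simp [wordF]
    rw [e, map_mul, ih, ew_cons]
    rfl

theorem u_rel : ∀ w ∈ invW ++ relW, ew u w = 1 := by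
  intro w hw
  rw [← mk_wordF]
  exact PresentedGroup.one_of_mem ⟨w, hw, rfl⟩

theorem u_mod (i : ℕ) : u (i % 8) = u i := by
  unfold u
  congr 1
  apply Fin.ext
  rw [gi_val, gi_val, Nat.mod_mod]

theorem u_sq (i : ℕ) : u i * u i = 1 := by
  rw [← u_mod i]
  have h : i % 8 < 8 := Nat.mod_lt _ (by norm_num)
  have key : ∀ j < 8, u j * u j = 1 := by
    intro j hj
    have hm : [j, j] ∈ invW ++ relW := by
      apply List.mem_append_left
      interval_cases j <;> decide
    have := u_rel _ hm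
    simpa [ew] using this
  exact key _ h

/-- the homomorphism from `PH` defined by eight elements satisfying the relators -/
noncomputable def homPH {H : Type*} [Group H] (t : ℕ → H)
    (ht : ∀ w ∈ invW ++ relW, ew (fun i => t (i % 8)) w = 1) : PH →* H :=
  PresentedGroup.toGroup (rels := RH) (f := fun k : Fin 8 => t k.val) (by
    rintro r ⟨w, hw, rfl⟩
    rw [lift_wordF]
    exact ht w hw)

theorem homPH_u {H : Type*} [Group H] (t : ℕ → H)
    (ht : ∀ w ∈ invW ++ relW, ew (fun i => t (i % 8)) w = 1) (i : ℕ) :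
    homPH t ht (u i) = t (i % 8) := by
  unfold homPH u
  rw [PresentedGroup.toGroup.of]
  rfl

theorem closure_u : Subgroup.closure (u '' Set.Iio 8) = ⊤ := by
  have h := PresentedGroup.closure_range_of RH
  rw [← h]
  congr 1
  ext x
  constructor
  · rintro ⟨i, -, rfl⟩
    exact ⟨gi i, rfl⟩
  · rintro ⟨k, rfl⟩
    exact ⟨k.val, k.isLt, by unfold u; rw [gi_fin]⟩

theorem LH8 : L u 8 = ⊤ := closure_u

theorem relW_lt : ∀ w ∈ invW ++ relW, ∀ a ∈ w, a < 8 := by decide

theorem sub1 : ∀ w ∈ U6P1.T.rels1, w ∈ invW ++ relW := by decide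
theorem sub2 : ∀ w ∈ U6P2.T.rels1, w ∈ invW ++ relW := by decide
theorem sub3 : ∀ w ∈ U6P3.T.rels1, w ∈ invW ++ relW := by decide
theorem sub4 : ∀ w ∈ U6P4.T.rels1, w ∈ invW ++ relW := by decide
theorem sub5 : ∀ w ∈ U6P5.T.rels1, w ∈ invW ++ relW := by decide
theorem sub6 : ∀ w ∈ U6P6.T.rels1, w ∈ invW ++ relW := by decide
theorem sub7 : ∀ w ∈ U6P7.T.rels1, w ∈ invW ++ relW := by decide
theorem sub8 : ∀ w ∈ U6P8.T.rels1, w ∈ invW ++ relW := by decide

open Cfsg.Agent.Lib.Helper19.TCU in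
/-- the order bound from the Todd–Coxeter chain -/
theorem card_PH_le : Finite PH ∧ Nat.card PH ≤ 18393661440 := by
  have h0 : Finite (L u 0) ∧ Nat.card (L u 0) ≤ 1 := by
    rw [L_zero]
    exact ⟨inferInstance, by simp⟩
  obtain ⟨f0, c0⟩ := h0
  obtain ⟨f1, c1⟩ := tc_step_upper u U6P1.T 0 U6P1.checked u_sq (fun w hw => u_rel w (sub1 w hw))
  obtain ⟨f2, c2⟩ := tc_step_upper u U6P2.T 1 U6P2.checked u_sq (fun w hw => u_rel w (sub2 w hw))
  obtain ⟨f3, c3⟩ := tc_step_upper u U6P3.T 2 U6P3.checked u_sq (fun w hw => u_rel w (sub3 w hw))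
  obtain ⟨f4, c4⟩ := tc_step_upper u U6P4.T 3 U6P4.checked u_sq (fun w hw => u_rel w (sub4 w hw))
  obtain ⟨f5, c5⟩ := tc_step_upper u U6P5.T 4 U6P5.checked u_sq (fun w hw => u_rel w (sub5 w hw))
  obtain ⟨f6, c6⟩ := tc_step_upper u U6P6.T 5 U6P6.checked u_sq (fun w hw => u_rel w (sub6 w hw))
  obtain ⟨f7, c7⟩ := tc_step_upper u U6P7.T 6 U6P7.checked u_sq (fun w hw => u_rel w (sub7 w hw))
  obtain ⟨f8, c8⟩ := tc_step_upper u U6P8.T 7 U6P8.checked u_sq (fun w hw => u_rel w (sub8 w hw))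
  have hN1 : U6P1.T.N = 2 := rfl
  have hN2 : U6P2.T.N = 3 := rfl
  have hN3 : U6P3.T.N = 4 := rfl
  have hN4 : U6P4.T.N = 5 := rfl
  have hN5 : U6P5.T.N = 6 := rfl
  have hN6 : U6P6.T.N = 81 := rfl
  have hN7 : U6P7.T.N = 224 := rfl
  have hN8 : U6P8.T.N = 1408 := rfl
  rw [hN1] at c1; rw [hN2] at c2; rw [hN3] at c3; rw [hN4] at c4
  rw [hN5] at c5; rw [hN6] at c6; rw [hN7] at c7; rw [hN8] at c8
  have e : Nat.card PH = Nat.card (L u 8) := by
    rw [LH8]
    exact (Nat.card_congr (Subgroup.topEquiv (G := PH)).toEquiv).symm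
  have hfin : Finite PH := by
    have : Finite (⊤ : Subgroup PH) := by rw [← LH8]; exact f8
    exact Finite.of_equiv _ (Subgroup.topEquiv (G := PH)).toEquiv
  refine ⟨hfin, ?_⟩
  rw [e]
  have b1 : Nat.card (L u 1) ≤ 2 := by nlinarith
  have b2 : Nat.card (L u 2) ≤ 6 := by nlinarith
  have b3 : Nat.card (L u 3) ≤ 24 := by nlinarith
  have b4 : Nat.card (L u 4) ≤ 120 := by nlinarith
  have b5 : Nat.card (L u 5) ≤ 720 := by nlinarith
  have b6 : Nat.card (L u 6) ≤ 58320 := by nlinarith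
  have b7 : Nat.card (L u 7) ≤ 13063680 := by nlinarith
  nlinarith

end Cfsg.Agent.Lib.Helper28.U6
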