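import Mathlib
import Cfsg.Prelude.Def_Classical
import Cfsg.Prelude.Def_ClassicalGeometry
import Cfsg.Agent.Lib.Helper13.UTransvComm
import Cfsg.Agent.Lib.Helper28.U6Pres
import Cfsg.Agent.S0280
import Cfsg.Agent.S0283

/-!
# `PH` maps onto `PSU₆(2)`

The eight generators of `PH` go to the classes of unitary transvections `x ↦ x + h(x, v) v`
(`v` isotropic) of the Hermitian space `F4⁶`.  Every relator evaluates to a scalar matrix, so the
map is well defined into `PSU₆(2)`.  The image contains the classes of all such transvections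
(orbit certificate), hence a non-trivial normal subgroup of the simple group `PSU₆(2)`.
-/

set_option autoImplicit false

namespace Cfsg.Agent.Lib.Helper28.U6

open Matrix
open Cfsg.Agent.Lib.Helper19 (F4)
open Cfsg.Agent.Lib.Helper45 (IsHermIso)
open Cfsg.Agent.Lib.Helper13 (utransv_conj suMk suMk_val su_ext isHermIso_utransv det_utransv)
open Cfsg.Agent.Lib.Helper56.TC (ew ew_nil ew_cons ew_append ew_congr)

theorem hF : Fintype.card K = 2 ^ 2 := rfl

/-- the special unitary group -/
abbrev SU6 : Subgroup (Matrix.SpecialLinearGroup (Fin 6) K) := Cfsg.SU 6 K 2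

/-- the projective special unitary group -/
abbrev PSU6 : Type := Cfsg.PSU 6 K 2

/-- the matrix of an element of the special unitary group, as a monoid homomorphism -/
def coeM : ↥SU6 →* Matrix (Fin 6) (Fin 6) K := (Cfsg.slToMat 6 K).comp SU6.subtype

theorem coeM_injective : Function.Injective coeM := fun g h H => su_ext g h H

theorem coeM_iso (g : ↥SU6) : IsHermIso 6 K 2 (coeM g) := g.2

/-- the transvection attached to a vector -/
def tvM (v : Fin 6 → K) : Matrix (Fin 6) (Fin 6) K := Cfsg.unitaryTransvection 6 2 v 1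

theorem one_sq : (1 : K) ^ 2 = -1 := by decide

theorem A_mod (k : ℕ) : A (k % 8) = A k := by
  unfold A
  rw [Nat.mod_mod]

theorem hV (k : ℕ) : Cfsg.hermForm 6 K 2 (vN (cV (k % 8))) (vN (cV (k % 8))) = 0 :=
  QV (k % 8) (Nat.mod_lt _ (by norm_num))

theorem A_eq (k : ℕ) : A k = tvM (vN (cV (k % 8))) := by
  rw [← A_mod k]
  exact A_tv (k % 8) (Nat.mod_lt _ (by norm_num))

theorem A_det (k : ℕ) : (A k).det = 1 := by
  rw [A_eq]
  exact det_utransv _ _ (hV k)

theorem A_iso (k : ℕ) : IsHermIso 6 K 2 (A k) := by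
  rw [A_eq]
  exact isHermIso_utransv hF _ _ (hV k) one_sq

theorem A_sq (k : ℕ) : A k * A k = 1 := by
  rw [← A_mod k]
  have h : k % 8 < 8 := Nat.mod_lt _ (by norm_num)
  generalize k % 8 = j at h
  interval_cases j
  exacts [invA_0, invA_1, invA_2, invA_3, invA_4, invA_5, invA_6, invA_7]

/-- the generators as elements of the special unitary group -/
def Tg (k : ℕ) : ↥SU6 := suMk (A k) (A_det k) (A_iso k)

theorem coeM_Tg (k : ℕ) : coeM (Tg k) = A k := rfl

theorem Tg_mod (k : ℕ) : Tg (k % 8) = Tg k := by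
  apply coeM_injective
  rw [coeM_Tg, coeM_Tg, A_mod]

theorem Tg_sq (k : ℕ) : Tg k * Tg k = 1 := by
  apply coeM_injective
  rw [map_mul, coeM_Tg, A_sq, map_one]

theorem Tg_inv (k : ℕ) : (Tg k)⁻¹ = Tg k := inv_eq_of_mul_eq_one_left (Tg_sq k)

theorem relAll : ∀ w ∈ invW ++ relW, IsScal (ew A w) := by
  intro w hw
  rcases List.mem_append.mp hw with h | h
  · simp only [invW, List.mem_cons, List.not_mem_nil, or_false] at h
    have key : ∀ k, IsScal (ew A [k, k]) := by
      intro k
      have e : ew A [k, k] = A k * A k := by simp [ew]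
      rw [e, A_sq]
      exact ⟨1, by rw [one_smul]⟩
    rcases h with rfl | rfl | rfl | rfl | rfl | rfl | rfl | rfl <;> exact key _
  · exact relA w h

theorem scal_center (g : ↥SU6) (hg : IsScal (coeM g)) : g ∈ Subgroup.center ↥SU6 := by
  obtain ⟨c, hc⟩ := hg
  rw [Subgroup.mem_center_iff]
  intro h
  apply coeM_injective
  rw [map_mul, map_mul, hc, Matrix.mul_smul, Matrix.smul_mul, mul_one, one_mul]

/-- the images of the generators in the projective group -/
def Tq (k : ℕ) : PSU6 := QuotientGroup.mk' (Subgroup.center ↥SU6) (Tg k)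

theorem Tq_mod (k : ℕ) : Tq (k % 8) = Tq k := by
  unfold Tq
  rw [Tg_mod]

theorem Tq_rel : ∀ w ∈ invW ++ relW, ew (fun i => Tq (i % 8)) w = 1 := by
  intro w hw
  have e : ew (fun i => Tq (i % 8)) w
      = QuotientGroup.mk' (Subgroup.center ↥SU6) (ew (fun i => Tg (i % 8)) w) :=
    (ew_hom (QuotientGroup.mk' (Subgroup.center ↥SU6)) (fun i => Tg (i % 8)) w).symm
  rw [e, QuotientGroup.mk'_apply, QuotientGroup.eq_one_iff]
  apply scal_center
  rw [ew_hom coeM]
  have e2 : (fun i => coeM (Tg (i % 8))) = A := by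
    funext i
    rw [coeM_Tg, A_mod]
  rw [e2]
  exact relAll w hw

/-- the homomorphism from `PH` to `PSU₆(2)` -/
noncomputable def β : PH →* PSU6 := homPH Tq Tq_rel

theorem β_u (i : ℕ) : β (u i) = Tq i := by
  unfold β
  rw [homPH_u, Tq_mod]

/-! ### `PH` is perfect -/

theorem comm_edge {C : Type*} [CommGroup C] (x y : C) (hx : x * x = 1) (hy : y * y = 1)
    (h : x * (y * (x * (y * (x * (y * 1))))) = 1) : x = y := by
  have e : x * (y * (x * (y * (x * (y * 1))))) = (x * x) * (y * y) * (x * y) := by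
    simp only [mul_one, mul_left_comm, mul_comm]
  rw [e, hx, hy, one_mul, one_mul] at h
  calc x = x * (y * y) := by rw [hy, mul_one]
    _ = (x * y) * y := by rw [mul_assoc]
    _ = y := by rw [h, one_mul]

/-- images of the generators in the abelianization -/
noncomputable def ab (i : ℕ) : Abelianization PH := Abelianization.of (u i)

theorem ab_rel (w : List ℕ) (hw : w ∈ invW ++ relW) : ew ab w = 1 := by
  have h := ew_hom (Abelianization.of (G := PH)) u w
  rw [u_rel w hw, map_one] at h
  exact h.symm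

theorem ab_sq (i : ℕ) : ab i * ab i = 1 := by
  unfold ab
  rw [← map_mul, u_sq, map_one]

theorem ab_edge (i j : ℕ) (hw : [i, j, i, j, i, j] ∈ invW ++ relW) : ab i = ab j := by
  have h := ab_rel _ hw
  simp only [ew_cons, ew_nil] at h
  exact comm_edge _ _ (ab_sq i) (ab_sq j) h

theorem ew_const {C : Type*} [Monoid C] (t : C) (w : List ℕ) : ew (fun _ => t) w = t ^ w.length := by
  induction w with
  | nil => simp [ew]
  | cons a w ih => rw [ew_cons, ih, List.length_cons, pow_succ']

theorem ab_one (i : ℕ) (hi : i < 8) : ab i = 1 := by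
  have e01 : ab 0 = ab 1 := ab_edge 0 1 (by decide)
  have e05 : ab 0 = ab 5 := ab_edge 0 5 (by decide)
  have e06 : ab 0 = ab 6 := ab_edge 0 6 (by decide)
  have e12 : ab 1 = ab 2 := ab_edge 1 2 (by decide)
  have e23 : ab 2 = ab 3 := ab_edge 2 3 (by decide)
  have e27 : ab 2 = ab 7 := ab_edge 2 7 (by decide)
  have e34 : ab 3 = ab 4 := ab_edge 3 4 (by decide)
  have hall : ∀ a < 8, ab a = ab 0 := by
    intro a ha
    interval_cases a
    · rfl
    · exact e01.symm
    · rw [← e12, ← e01]
    · rw [← e23, ← e12, ← e01]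
    · rw [← e34, ← e23, ← e12, ← e01]
    · exact e05.symm
    · exact e06.symm
    · rw [← e27, ← e12, ← e01]
  have hE : ew ab (List.flatten (List.replicate 9 [0, 1, 2, 4, 5, 6, 7])) = 1 :=
    ab_rel _ (by decide)
  have hc : ew ab (List.flatten (List.replicate 9 [0, 1, 2, 4, 5, 6, 7]))
      = ew (fun _ => ab 0) (List.flatten (List.replicate 9 [0, 1, 2, 4, 5, 6, 7])) := by
    apply ew_congr
    intro a ha
    exact hall a (by revert a; decide)
  rw [hc, ew_const] at hE
  have hlen : (List.flatten (List.replicate 9 [0, 1, 2, 4, 5, 6, 7])).length = 63 := by decide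
  rw [hlen] at hE
  have h0 : ab 0 = 1 := by
    have h2 : ab 0 ^ 2 = 1 := by rw [sq]; exact ab_sq 0
    have e : ab 0 ^ 63 = (ab 0 ^ 2) ^ 31 * ab 0 := by rw [← pow_mul, ← pow_succ]
    rw [e, h2, one_pow, one_mul] at hE
    exact hE
  rw [hall i hi, h0]

theorem PH_perfect : commutator PH = ⊤ := by
  rw [eq_top_iff, ← closure_u, Subgroup.closure_le]
  rintro _ ⟨i, hi, rfl⟩
  have h : Abelianization.of (u i) = 1 := ab_one i hi
  have hk : u i ∈ (Abelianization.of (G := PH)).ker := h
  rwa [Abelianization.ker_of] at hk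

/-! ### The image contains the classes of all transvections -/

theorem code_lt (x : K) : F4.code x < 4 := by cases x <;> decide

theorem ofCode_code (x : K) : F4.ofCode (F4.code x) = x := by cases x <;> rfl

theorem vC_lt (w : Fin 6 → K) : vC w < 4096 := by
  have h0 := code_lt (w 0); have h1 := code_lt (w 1); have h2 := code_lt (w 2)
  have h3 := code_lt (w 3); have h4 := code_lt (w 4); have h5 := code_lt (w 5)
  unfold vC
  omega

theorem ofCode_mod (n : ℕ) : F4.ofCode (n % 4) = F4.ofCode n := by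
  unfold F4.ofCode
  rw [Nat.mod_mod]

theorem vN_vC (w : Fin 6 → K) : vN (vC w) = w := by
  have h0 := code_lt (w 0); have h1 := code_lt (w 1); have h2 := code_lt (w 2)
  have h3 := code_lt (w 3); have h4 := code_lt (w 4); have h5 := code_lt (w 5)
  have e0 : vC w / 1 % 4 = F4.code (w 0) := by unfold vC; omega
  have e1 : vC w / 4 % 4 = F4.code (w 1) := by unfold vC; omega
  have e2 : vC w / 16 % 4 = F4.code (w 2) := by unfold vC; omega
  have e3 : vC w / 64 % 4 = F4.code (w 3) := by unfold vC; omega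
  have e4 : vC w / 256 % 4 = F4.code (w 4) := by unfold vC; omega
  have e5 : vC w / 1024 % 4 = F4.code (w 5) := by unfold vC; omega
  funext i
  fin_cases i
  · show F4.ofCode (vC w / 1) = w 0
    rw [← ofCode_mod, e0, ofCode_code]
  · show F4.ofCode (vC w / 4) = w 1
    rw [← ofCode_mod, e1, ofCode_code]
  · show F4.ofCode (vC w / 16) = w 2
    rw [← ofCode_mod, e2, ofCode_code]
  · show F4.ofCode (vC w / 64) = w 3
    rw [← ofCode_mod, e3, ofCode_code]
  · show F4.ofCode (vC w / 256) = w 4
    rw [← ofCode_mod, e4, ofCode_code]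
  · show F4.ofCode (vC w / 1024) = w 5
    rw [← ofCode_mod, e5, ofCode_code]

theorem tvM_zero : tvM (vN 0) = 1 := by decide +kernel

theorem Tq_mem (k : ℕ) : Tq k ∈ β.range := ⟨u k, β_u k⟩

theorem mem_range_of_tv : ∀ n : ℕ, ∀ v : Fin 6 → K, dep (vC v) = n → hN v = 0 →
    ∀ g : ↥SU6, coeM g = tvM v →
      QuotientGroup.mk' (Subgroup.center ↥SU6) g ∈ β.range := by
  intro n
  induction n using Nat.strong_induction_on with
  | _ n ih =>
    intro v hn hv g hg
    have hc := orb_all (vC v) (vC_lt _)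
    unfold orbOK at hc
    rw [vN_vC] at hc
    simp only [hv, decide_true, Bool.not_true, Bool.false_or, Bool.or_eq_true, beq_iff_eq,
      decide_eq_true_eq] at hc
    rcases hc with (hc | hc) | hc
    · -- the zero vector
      have hv0 : v = vN 0 := by rw [← vN_vC v, hc]
      have h1 : g = 1 := by
        apply coeM_injective
        rw [hg, hv0, map_one]
        exact tvM_zero
      rw [h1, map_one]
      exact β.range.one_mem
    · -- the root
      have hv0 : v = vN (cV (0 % 8)) := by
        rw [← vN_vC v, hc]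
        rfl
      have h1 : g = Tg 0 := by
        apply coeM_injective
        rw [hg, coeM_Tg, A_eq 0, hv0]
      rw [h1]
      exact Tq_mem 0
    · -- one step towards the root
      set j := gj (vC v) with hj
      have hv' : hN (A j *ᵥ v) = 0 := by
        unfold hN
        rw [A_iso j]
        exact hv
      have hg' : coeM (Tg j * g * (Tg j)⁻¹) = tvM (A j *ᵥ v) := by
        rw [Tg_inv, map_mul, map_mul, coeM_Tg, hg]
        unfold tvM
        rw [utransv_conj (A_iso j) v 1, mul_assoc, A_sq, mul_one]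
      have hmem := ih _ (by rw [← hn]; exact hc) (A j *ᵥ v) rfl hv' _ hg'
      have e : QuotientGroup.mk' (Subgroup.center ↥SU6) g
          = (Tq j)⁻¹ * QuotientGroup.mk' (Subgroup.center ↥SU6) (Tg j * g * (Tg j)⁻¹) * Tq j := by
        unfold Tq
        rw [← map_inv, ← map_mul, ← map_mul]
        congr 1
        group
      rw [e]
      exact β.range.mul_mem (β.range.mul_mem (β.range.inv_mem (Tq_mem j)) hmem) (Tq_mem j)

/-- the set of transvections attached to isotropic vectors -/
def Dset : Set ↥SU6 := {g | ∃ v : Fin 6 → K, hN v = 0 ∧ coeM g = tvM v}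

theorem Tg_mem_Dset (k : ℕ) : Tg k ∈ Dset :=
  ⟨vN (cV (k % 8)), hV k, by rw [coeM_Tg, A_eq]⟩

theorem Dset_conj (h g : ↥SU6) (hg : g ∈ Dset) : h * g * h⁻¹ ∈ Dset := by
  obtain ⟨v, hv, hgv⟩ := hg
  refine ⟨coeM h *ᵥ v, by unfold hN; rw [coeM_iso h]; exact hv, ?_⟩
  have h1 : coeM h * coeM h⁻¹ = 1 := by rw [← map_mul, mul_inv_cancel, map_one]
  rw [map_mul, map_mul, hgv]
  unfold tvM
  rw [utransv_conj (coeM_iso h) v 1, mul_assoc, h1, mul_one]

/-- the subgroup generated by the transvections -/
def Nt : Subgroup ↥SU6 := Subgroup.closure Dset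

theorem Nt_normal : Nt.Normal := by
  refine ⟨fun n hn h => ?_⟩
  have hle : Nt.map (MulAut.conj h).toMonoidHom ≤ Nt := by
    unfold Nt
    rw [MonoidHom.map_closure]
    apply Subgroup.closure_mono
    rintro _ ⟨g, hg, rfl⟩
    exact Dset_conj h g hg
  exact hle (Subgroup.mem_map_of_mem _ hn)

theorem Nt_map_le : Nt.map (QuotientGroup.mk' (Subgroup.center ↥SU6)) ≤ β.range := by
  unfold Nt
  rw [MonoidHom.map_closure, Subgroup.closure_le]
  rintro _ ⟨g, ⟨v, hv, hg⟩, rfl⟩
  exact mem_range_of_tv _ v rfl hv g hg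

theorem simple_PSU6 : IsSimpleGroup PSU6 :=
  Cfsg.Agent.S0283.result hF 6 (by norm_num) (by norm_num)

theorem β_surjective : Function.Surjective β := by
  have := simple_PSU6
  have hnorm : (Nt.map (QuotientGroup.mk' (Subgroup.center ↥SU6))).Normal :=
    Subgroup.Normal.map Nt_normal _ (QuotientGroup.mk'_surjective _)
  have hne : Nt.map (QuotientGroup.mk' (Subgroup.center ↥SU6)) ≠ ⊥ := by
    intro hbot
    have h0 : QuotientGroup.mk' (Subgroup.center ↥SU6) (Tg 0) ∈
        Nt.map (QuotientGroup.mk' (Subgroup.center ↥SU6)) :=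
      Subgroup.mem_map_of_mem _ (Subgroup.subset_closure (Tg_mem_Dset 0))
    rw [hbot, Subgroup.mem_bot, QuotientGroup.mk'_apply, QuotientGroup.eq_one_iff] at h0
    have hc := Subgroup.mem_center_iff.mp h0 (Tg 1)
    have hm := congrArg coeM hc
    rw [map_mul, map_mul, coeM_Tg, coeM_Tg] at hm
    exact A01_ne hm.symm
  have htop := (hnorm.eq_bot_or_eq_top).resolve_left hne
  rw [← MonoidHom.range_eq_top, eq_top_iff, ← htop]
  exact Nt_map_le

theorem card_PSU6 : Nat.card PSU6 = 9196830720 := by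
  have h : Nat.gcd 6 (2 + 1) * ((2 + 1) * Nat.card PSU6) = 2 ^ (6 * (6 - 1) / 2) *
      ∏ i ∈ Finset.range 6, (if Even i then 2 ^ (i + 1) + 1 else 2 ^ (i + 1) - 1) :=
    Cfsg.Agent.S0280.result hF 6 (by norm_num)
  have e : (2 ^ (6 * (6 - 1) / 2) * ∏ i ∈ Finset.range 6,
      (if Even i then 2 ^ (i + 1) + 1 else 2 ^ (i + 1) - 1) : ℕ) = 82771476480 := by
    decide +kernel
  rw [e] at h
  have hg : Nat.gcd 6 (2 + 1) = 3 := by norm_num
  rw [hg] at h
  omega

end Cfsg.Agent.Lib.Helper28.U6
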