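import Mathlib
import Cfsg.Prelude.Def_Spor_Fi22
import Cfsg.Prelude.Def_SporadicB
import Cfsg.Agent.Lib.Helper56.TCPres
import Cfsg.Agent.Lib.Helper56.Fi22S.Main
import Cfsg.Agent.Lib.Helper28.DoubleCover
import Cfsg.Agent.Lib.Helper28.U6Hom
import Cfsg.Agent.Lib.Helper28.U6FiD
import Cfsg.Agent.Lib.Helper28.U6FiC0
import Cfsg.Agent.Lib.Helper28.U6FiC1
import Cfsg.Agent.Lib.Helper28.U6FiC2
import Cfsg.Agent.Lib.Helper28.U6FiC3
import Cfsg.Agent.Lib.Helper28.U6FiC4
import Cfsg.Agent.S1687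
import Cfsg.Agent.S1696

/-!
# The subgroup `⟨a, c, d, e, f, g, h, i, (abcdeh)^5⟩` of `Fi₂₂` is a non-split double cover of `PSU₆(2)`

The presented group `PH` maps onto this subgroup (the relators hold in `Fi₂₂` because they act
trivially in the faithful permutation representation on 3510 points); comparing orders, the map
is an isomorphism, and the kernel of `PH → PSU₆(2)` has order two.
-/

set_option autoImplicit false
set_option maxRecDepth 1000000

namespace Cfsg.Agent.Lib.Helper28.U6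

open Cfsg.Spor Cfsg.Agent.Lib.Helper56 Cfsg.Agent.Lib.Helper56.TC Cfsg.Agent.Lib.Helper56.TC.Tabs

/-! ### Words acting trivially are trivial in `Fi₂₂` -/

theorem chk_u351 : Upto chkTr 351 := upto_add (upto_zero chkTr) rfl chk_c0
theorem chk_u702 : Upto chkTr 702 := upto_add chk_u351 rfl chk_c351
theorem chk_u1053 : Upto chkTr 1053 := upto_add chk_u702 rfl chk_c702
theorem chk_u1404 : Upto chkTr 1404 := upto_add chk_u1053 rfl chk_c1053
theorem chk_u1755 : Upto chkTr 1755 := upto_add chk_u1404 rfl chk_c1404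
theorem chk_u2106 : Upto chkTr 2106 := upto_add chk_u1755 rfl chk_c1755
theorem chk_u2457 : Upto chkTr 2457 := upto_add chk_u2106 rfl chk_c2106
theorem chk_u2808 : Upto chkTr 2808 := upto_add chk_u2457 rfl chk_c2457
theorem chk_u3159 : Upto chkTr 3159 := upto_add chk_u2808 rfl chk_c2808
theorem chk_u3510 : Upto chkTr 3510 := upto_add chk_u3159 rfl chk_c3159

theorem chk_all : ∀ v < 3510, chkTr v = true := chk_u3510

/-- the generators of `Fi₂₂` in the order `a, …, i` -/
noncomputable abbrev s : ℕ → Fi22 := pgen Fi22.edges Fi22.extra Fi22S.gens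

theorem moved : Fi22a.T.followT [1] 0 ≠ 0 := by decide +kernel

theorem exists_φ : ∃ φ : Fi22 →* Equiv.Perm (Fin Fi22a.T.N),
    Function.Injective φ ∧ ∀ l, φ (s l) = sigma Fi22S.hP l := by
  obtain ⟨φ, hφ⟩ := cox_hom Fi22.edges Fi22.extra Fi22a.T Fi22S.hP (by decide +kernel) (by decide)
    Fi22S.hall (fun _ _ => rfl) Fi22S.hrels
  refine ⟨φ, ?_, hφ⟩
  have hs : IsSimpleGroup Fi22 := Cfsg.Agent.S1696.result.1
  rw [← MonoidHom.ker_eq_bot_iff]
  rcases (φ.normal_ker).eq_bot_or_eq_top with h | h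
  · exact h
  · exfalso
    have h1 : s 1 ∈ φ.ker := by rw [h]; trivial
    have h2 : sigma Fi22S.hP 1 = 1 := by rw [← hφ 1]; exact h1
    have h3 := ew_sigma Fi22S.hP [1] (by decide +kernel) ⟨0, Fi22S.hP.hN⟩
    have h4 : ew (sigma Fi22S.hP) [1] = 1 := by
      rw [ew_cons, ew_nil, mul_one, h2]
    rw [h4] at h3
    exact moved h3.symm

theorem trW_K : ∀ w ∈ trW, ∀ a ∈ w, a < Fi22a.T.K := by decide +kernel

theorem fi_word : ∀ w ∈ trW, ew s w = 1 := by
  intro w hw
  obtain ⟨φ, hinj, hφ⟩ := exists_φ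
  apply hinj
  rw [map_one, ew_hom φ s w]
  have e : (fun i => φ (s i)) = sigma Fi22S.hP := funext hφ
  rw [e]
  apply Equiv.ext
  intro x
  apply Fin.ext
  rw [ew_sigma Fi22S.hP w (trW_K w hw) x]
  have h := chk_all x.val x.isLt
  exact beq_true ((allW_iff _ _).mp h w hw)

/-! ### The homomorphism `PH → Fi₂₂` -/

/-- the word `(abcdeh)^5` -/
def W5 : List ℕ :=
  [0, 1, 2, 3, 4, 7, 0, 1, 2, 3, 4, 7, 0, 1, 2, 3, 4, 7, 0, 1, 2, 3, 4, 7, 0, 1, 2, 3, 4, 7]

/-- the word `(cdefhw)^5` in the generators of `PH` -/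
def X5 : List ℕ :=
  [6, 0, 1, 2, 5, 3, 6, 0, 1, 2, 5, 3, 6, 0, 1, 2, 5, 3, 6, 0, 1, 2, 5, 3, 6, 0, 1, 2, 5, 3]

/-- the words in the generators of `Fi₂₂` for the eight generators `d, e, f, w, i, h, c, g` -/
def gw (k : ℕ) : List ℕ :=
  match k with
  | 0 => [3]
  | 1 => [4]
  | 2 => [5]
  | 3 => W5
  | 4 => [8]
  | 5 => [7]
  | 6 => [2]
  | _ => [6]

/-- the word `a (cdefhw)^5` in the generators of `Fi₂₂` -/
def aW : List ℕ := 0 :: X5.flatMap (fun i => gw (i % 8))

theorem trW_eq : trW = (invW ++ relW).map (fun w => w.flatMap (fun i => gw (i % 8))) ++ [aW] := by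
  decide +kernel

/-- the images of the generators of `PH` in `Fi₂₂` -/
noncomputable def tF (k : ℕ) : Fi22 := ew s (gw k)

theorem ew_tF (w : List ℕ) :
    ew (fun i => tF (i % 8)) w = ew s (w.flatMap (fun i => gw (i % 8))) := by
  induction w with
  | nil => rfl
  | cons a w ih =>
    rw [ew_cons, ih, List.flatMap_cons, ew_append]
    rfl

theorem tF_rel : ∀ w ∈ invW ++ relW, ew (fun i => tF (i % 8)) w = 1 := by
  intro w hw
  rw [ew_tF]
  apply fi_word
  rw [trW_eq]
  exact List.mem_append_left _ (List.mem_map_of_mem hw)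

/-- the homomorphism from `PH` to `Fi₂₂` -/
noncomputable def α : PH →* Fi22 := homPH tF tF_rel

theorem α_u (i : ℕ) : α (u i) = tF (i % 8) := homPH_u tF tF_rel i

/-! ### The range of `α` -/

/-- the quotient map onto `Fi₂₂` -/
noncomputable abbrev mkF : FreeGroup Fi22.Gen →* Fi22 :=
  PresentedGroup.mk (coxRelators Fi22.edges ∪ {r | r ∈ Fi22.extra})

/-- the subgroup of the statement -/
noncomputable abbrev HS : Subgroup Fi22 :=
  (Subgroup.closure ({Fi22.a, Fi22.c, Fi22.d, Fi22.e, Fi22.f, Fi22.g, Fi22.h, Fi22.i,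
    (Fi22.a * Fi22.b * Fi22.c * Fi22.d * Fi22.e * Fi22.h) ^ 5} : Set (FreeGroup Fi22.Gen))).map
    (PresentedGroup.mk (coxRelators Fi22.edges ∪ {r | r ∈ Fi22.extra}))

theorem s_0 : s 0 = mkF Fi22.a := pgen_of_lt Fi22.edges Fi22.extra Fi22S.gens 0 (by decide)
theorem s_1 : s 1 = mkF Fi22.b := pgen_of_lt Fi22.edges Fi22.extra Fi22S.gens 1 (by decide)
theorem s_2 : s 2 = mkF Fi22.c := pgen_of_lt Fi22.edges Fi22.extra Fi22S.gens 2 (by decide)
theorem s_3 : s 3 = mkF Fi22.d := pgen_of_lt Fi22.edges Fi22.extra Fi22S.gens 3 (by decide)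
theorem s_4 : s 4 = mkF Fi22.e := pgen_of_lt Fi22.edges Fi22.extra Fi22S.gens 4 (by decide)
theorem s_5 : s 5 = mkF Fi22.f := pgen_of_lt Fi22.edges Fi22.extra Fi22S.gens 5 (by decide)
theorem s_6 : s 6 = mkF Fi22.g := pgen_of_lt Fi22.edges Fi22.extra Fi22S.gens 6 (by decide)
theorem s_7 : s 7 = mkF Fi22.h := pgen_of_lt Fi22.edges Fi22.extra Fi22S.gens 7 (by decide)
theorem s_8 : s 8 = mkF Fi22.i := pgen_of_lt Fi22.edges Fi22.extra Fi22S.gens 8 (by decide)

theorem ew_one (x : ℕ) : ew s [x] = s x := by rw [ew_cons, ew_nil, mul_one]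

theorem s_W5 : ew s W5 = mkF ((Fi22.a * Fi22.b * Fi22.c * Fi22.d * Fi22.e * Fi22.h) ^ 5) := by
  have e : W5 = List.flatten (List.replicate 5 [0, 1, 2, 3, 4, 7]) := by decide
  rw [e, ew_rep, map_pow, map_mul, map_mul, map_mul, map_mul, map_mul, ← s_0, ← s_1, ← s_2, ← s_3,
    ← s_4, ← s_7]
  congr 1

theorem tF_0 : tF 0 = mkF Fi22.d := by unfold tF; rw [← s_3]; exact ew_one 3
theorem tF_1 : tF 1 = mkF Fi22.e := by unfold tF; rw [← s_4]; exact ew_one 4
theorem tF_2 : tF 2 = mkF Fi22.f := by unfold tF; rw [← s_5]; exact ew_one 5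
theorem tF_3 : tF 3 = mkF ((Fi22.a * Fi22.b * Fi22.c * Fi22.d * Fi22.e * Fi22.h) ^ 5) := s_W5
theorem tF_4 : tF 4 = mkF Fi22.i := by unfold tF; rw [← s_8]; exact ew_one 8
theorem tF_5 : tF 5 = mkF Fi22.h := by unfold tF; rw [← s_7]; exact ew_one 7
theorem tF_6 : tF 6 = mkF Fi22.c := by unfold tF; rw [← s_2]; exact ew_one 2
theorem tF_7 : tF 7 = mkF Fi22.g := by unfold tF; rw [← s_6]; exact ew_one 6

theorem mem_HS (r : FreeGroup Fi22.Gen)
    (hr : r ∈ ({Fi22.a, Fi22.c, Fi22.d, Fi22.e, Fi22.f, Fi22.g, Fi22.h, Fi22.i,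
      (Fi22.a * Fi22.b * Fi22.c * Fi22.d * Fi22.e * Fi22.h) ^ 5} : Set (FreeGroup Fi22.Gen))) :
    mkF r ∈ HS :=
  Subgroup.mem_map_of_mem _ (Subgroup.subset_closure hr)

theorem tF_mem (k : ℕ) (hk : k < 8) : tF k ∈ HS := by
  interval_cases k
  · rw [tF_0]; exact mem_HS _ (by simp)
  · rw [tF_1]; exact mem_HS _ (by simp)
  · rw [tF_2]; exact mem_HS _ (by simp)
  · rw [tF_3]; exact mem_HS _ (by simp)
  · rw [tF_4]; exact mem_HS _ (by simp)
  · rw [tF_5]; exact mem_HS _ (by simp)
  · rw [tF_6]; exact mem_HS _ (by simp)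
  · rw [tF_7]; exact mem_HS _ (by simp)

theorem tF_range (k : ℕ) (hk : k < 8) : tF k ∈ α.range :=
  ⟨u k, by rw [α_u, Nat.mod_eq_of_lt hk]⟩

theorem a_range : mkF Fi22.a ∈ α.range := by
  have h := fi_word aW (by rw [trW_eq]; exact List.mem_append_right _ (List.mem_singleton_self _))
  have e : ew s aW = s 0 * ew (fun i => tF (i % 8)) X5 := by
    rw [ew_tF]
    rfl
  rw [e] at h
  have e2 : ew (fun i => tF (i % 8)) X5 = α (ew u X5) := by
    rw [ew_hom α u X5]
    congr 1
    funext i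
    exact (α_u i).symm
  rw [e2] at h
  have e3 : s 0 = (α (ew u X5))⁻¹ := eq_inv_of_mul_eq_one_left h
  rw [← s_0, e3]
  exact α.range.inv_mem ⟨_, rfl⟩

theorem range_α : α.range = HS := by
  apply le_antisymm
  · rw [MonoidHom.range_eq_map, ← closure_u, MonoidHom.map_closure, Subgroup.closure_le]
    rintro _ ⟨_, ⟨i, hi, rfl⟩, rfl⟩
    have hi' : i < 8 := hi
    rw [α_u, Nat.mod_eq_of_lt hi']
    exact tF_mem i hi'
  · show Subgroup.map mkF (Subgroup.closure _) ≤ α.range
    rw [MonoidHom.map_closure, Subgroup.closure_le]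
    rintro _ ⟨r, hr, rfl⟩
    simp only [Set.mem_insert_iff, Set.mem_singleton_iff] at hr
    rcases hr with rfl | rfl | rfl | rfl | rfl | rfl | rfl | rfl | rfl
    · exact a_range
    · rw [← tF_6]; exact tF_range 6 (by norm_num)
    · rw [← tF_0]; exact tF_range 0 (by norm_num)
    · rw [← tF_1]; exact tF_range 1 (by norm_num)
    · rw [← tF_2]; exact tF_range 2 (by norm_num)
    · rw [← tF_7]; exact tF_range 7 (by norm_num)
    · rw [← tF_5]; exact tF_range 5 (by norm_num)
    · rw [← tF_4]; exact tF_range 4 (by norm_num)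
    · rw [← tF_3]; exact tF_range 3 (by norm_num)

/-! ### Orders -/

theorem card_HS : Nat.card HS = 18393661440 := by
  have hidx : HS.index = 3510 := Cfsg.Agent.S1687.result.1
  have h : Nat.card HS * HS.index = Nat.card Fi22 := Subgroup.card_mul_index HS
  have h2 : Nat.card HS * 3510 = 18393661440 * 3510 := by
    calc Nat.card HS * 3510 = Nat.card HS * HS.index := by rw [hidx]
      _ = Nat.card Fi22 := h
      _ = 64561751654400 := Cfsg.Agent.S1696.result.2
      _ = 18393661440 * 3510 := by norm_num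
  exact Nat.eq_of_mul_eq_mul_right (by norm_num) h2

theorem card_PH : Nat.card PH = 18393661440 := by
  have := card_PH_le.1
  apply le_antisymm card_PH_le.2
  have h : Nat.card α.range ≤ Nat.card PH :=
    Nat.card_le_card_of_surjective _ α.rangeRestrict_surjective
  have e : Nat.card α.range = 18393661440 := by
    rw [range_α]
    exact card_HS
  rw [e] at h
  exact h

theorem α_injective : Function.Injective α := by
  have := card_PH_le.1
  have e : Nat.card α.range = 18393661440 := by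
    rw [range_α]
    exact card_HS
  have hb : Function.Bijective α.rangeRestrict :=
    α.rangeRestrict_surjective.bijective_of_nat_card_le (by rw [e, card_PH])
  intro x y hxy
  apply hb.1
  exact Subtype.ext hxy

theorem card_ker : Nat.card β.ker = 2 := by
  have h : Nat.card β.ker * β.ker.index = Nat.card PH := Subgroup.card_mul_index β.ker
  have h1 : β.ker.index = 9196830720 := by
    have e : β.range = ⊤ := MonoidHom.range_eq_top.mpr β_surjective
    calc β.ker.index = Nat.card β.range := Subgroup.index_ker β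
      _ = Nat.card (⊤ : Subgroup PSU6) := by rw [e]
      _ = Nat.card PSU6 := Subgroup.card_top
      _ = 9196830720 := card_PSU6
  have h2 : Nat.card β.ker * 9196830720 = 2 * 9196830720 := by
    calc Nat.card β.ker * 9196830720 = Nat.card β.ker * β.ker.index := by rw [h1]
      _ = Nat.card PH := h
      _ = 18393661440 := card_PH
      _ = 2 * 9196830720 := by norm_num
  exact Nat.eq_of_mul_eq_mul_right (by norm_num) h2

theorem center_eq : Subgroup.center PH = β.ker := by
  apply le_antisymm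
  · intro c hc
    have h1 : β c ∈ Subgroup.center PSU6 := by
      rw [Subgroup.mem_center_iff]
      intro y
      obtain ⟨x, rfl⟩ := β_surjective y
      rw [← map_mul, ← map_mul, Subgroup.mem_center_iff.mp hc x]
    have := simple_PSU6
    have h2 : Subgroup.center PSU6 = ⊥ := by
      apply DC.center_eq_bot_of_simple
      rw [card_PSU6]
      intro hp
      have := hp.eq_one_or_self_of_dvd 2 (by norm_num)
      omega
    rw [h2, Subgroup.mem_bot] at h1
    exact h1
  · exact DC.le_center_of_card_two β.ker card_ker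

theorem card_center : Nat.card (Subgroup.center PH) = 2 := by
  rw [center_eq]
  exact card_ker

/-- the central quotient of `PH` is `PSU₆(2)` -/
noncomputable def quotEquiv : PH ⧸ Subgroup.center PH ≃* PSU6 :=
  (QuotientGroup.quotientMulEquivOfEq center_eq).trans
    (QuotientGroup.quotientKerEquivOfSurjective β β_surjective)

/-- `PH` is isomorphic to the subgroup of `Fi₂₂` -/
noncomputable def eqvH : PH ≃* HS :=
  (MonoidHom.ofInjective α_injective).trans (MulEquiv.subgroupCongr range_α)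

theorem main : Cfsg.IsNonsplitDoubleCover HS PSU6 :=
  DC.nonsplit_of_equiv eqvH card_center quotEquiv PH_perfect

end Cfsg.Agent.Lib.Helper28.U6
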