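import Mathlib
import Cfsg.Prelude.Def_Spor_Fi22
import Cfsg.Prelude.Def_SporadicB
import Cfsg.Agent.Lib.Helper28.TTClass
import Cfsg.Agent.Lib.Helper28.TT22C
import Cfsg.Agent.Lib.Helper28.U6Fi
import Cfsg.Agent.S1687
import Cfsg.Agent.S1696

/-!
# `Fi₂₂` as a group of 3-transpositions

In the presented group `Fi₂₂` the generator `a` centralises the subgroup
`⟨a, c, d, e, f, g, h, i, (abcdeh)^5⟩ ≅ 2·U₆(2)` of index 3510, which is maximal (rank three with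
subdegrees 693 and 2816).  Hence the conjugates of `a` form a class of 3510 3-transpositions whose
centralisers are non-split double covers of `U₆(2)`.
-/

set_option autoImplicit false
set_option maxRecDepth 1000000

namespace Cfsg.Agent.Lib.Helper28.TT22

open Cfsg.Spor Cfsg.Agent.Lib.Helper56 Cfsg.Agent.Lib.Helper56.TC Cfsg.Agent.Lib.Helper56.TC.Tabs
open Cfsg.Agent.Lib.Helper28.U6 (s mkF HS exists_φ s_0 s_1 s_2 s_3 s_4 s_5 s_6 s_7 s_8 s_W5 W5)
open Cfsg.Agent.Lib.Helper28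

theorem chk_u1755 : Upto chkTr2 1755 := upto_add (upto_zero chkTr2) rfl chk2_c0
theorem chk_u3510 : Upto chkTr2 3510 := upto_add chk_u1755 rfl chk2_c1755

theorem chk_all : ∀ v < 3510, chkTr2 v = true := chk_u3510

theorem trW2_K : ∀ w ∈ trW2, ∀ a ∈ w, a < Fi22a.T.K := by decide +kernel

theorem fi_word2 : ∀ w ∈ trW2, ew s w = 1 := by
  intro w hw
  obtain ⟨φ, hinj, hφ⟩ := exists_φ
  apply hinj
  rw [map_one, U6.ew_hom φ s w]
  have e : (fun i => φ (s i)) = sigma Fi22S.hP := funext hφ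
  rw [e]
  apply Equiv.ext
  intro x
  apply Fin.ext
  rw [ew_sigma Fi22S.hP w (trW2_K w hw) x]
  have h := chk_all x.val x.isLt
  exact beq_true ((allW_iff _ _).mp h w hw)

theorem hnode : ∀ x ∈ Fi22S.gens, x ∈ coxNodes Fi22.edges := by decide

theorem s_sq (i : ℕ) : s i * s i = 1 := pgen_sq Fi22.edges Fi22.extra Fi22S.hall hnode i

theorem ew_reverse {G : Type*} [Group G] (g : ℕ → G) (hg : ∀ i, g i * g i = 1) (w : List ℕ) :
    ew g w.reverse = (ew g w)⁻¹ := by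
  induction w with
  | nil => simp [ew_nil]
  | cons a w ih =>
    rw [List.reverse_cons, ew_append, ih, ew_cons, ew_cons, ew_nil, mul_one, mul_inv_rev]
    congr 1
    exact (TT.inv_of_sq (g a) (hg a)).symm

theorem s_ne (i j : ℕ) (hi : i < Fi22a.T.K) (hj : j < Fi22a.T.K) (v : ℕ) (hv : v < Fi22a.T.N)
    (h : Fi22a.T.followT [i] v ≠ Fi22a.T.followT [j] v) : s i ≠ s j := by
  intro e
  obtain ⟨φ, -, hφ⟩ := exists_φ
  have e2 : sigma Fi22S.hP i = sigma Fi22S.hP j := by rw [← hφ, ← hφ, e]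
  have h3 := ew_sigma Fi22S.hP [i] (by
    intro a ha
    rw [List.mem_singleton] at ha
    rw [ha]
    exact hi) ⟨v, hv⟩
  have h4 := ew_sigma Fi22S.hP [j] (by
    intro a ha
    rw [List.mem_singleton] at ha
    rw [ha]
    exact hj) ⟨v, hv⟩
  have e5 : ew (sigma Fi22S.hP) [i] = ew (sigma Fi22S.hP) [j] := by
    rw [ew_cons, ew_cons, e2]
  rw [e5] at h3
  exact h (h3.symm.trans h4)

theorem s01 : s 0 ≠ s 1 := s_ne 0 1 (by decide +kernel) (by decide +kernel) 0 (by decide +kernel)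
  (by decide +kernel)

theorem s20 : s 2 ≠ s 0 := s_ne 2 0 (by decide +kernel) (by decide +kernel) 1 (by decide +kernel)
  (by decide +kernel)

/-- `a` commutes with the generator number `k` -/
theorem comm_k (k : ℕ) (hk : [0, k, 0, k] ∈ trW2) : s 0 * s k = s k * s 0 := by
  have h := fi_word2 _ hk
  apply TT.comm_of_sq _ _ (s_sq 0) (s_sq k)
  rw [← h, ew_cons, ew_cons, ew_cons, ew_cons, ew_nil, mul_one]
  group

theorem comm_W : s 0 * ew s W5 = ew s W5 * s 0 := by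
  have h := fi_word2 [0, 0, 1, 2, 3, 4, 7, 0, 1, 2, 3, 4, 7, 0, 1, 2, 3, 4, 7, 0, 1, 2, 3, 4, 7, 0,
    1, 2, 3, 4, 7, 0, 7, 4, 3, 2, 1, 0, 7, 4, 3, 2, 1, 0, 7, 4, 3, 2, 1, 0, 7, 4, 3, 2, 1, 0, 7, 4,
    3, 2, 1, 0] (by decide)
  have e : [0, 0, 1, 2, 3, 4, 7, 0, 1, 2, 3, 4, 7, 0, 1, 2, 3, 4, 7, 0, 1, 2, 3, 4, 7, 0,
    1, 2, 3, 4, 7, 0, 7, 4, 3, 2, 1, 0, 7, 4, 3, 2, 1, 0, 7, 4, 3, 2, 1, 0, 7, 4, 3, 2, 1, 0, 7, 4,
    3, 2, 1, 0] = 0 :: (W5 ++ 0 :: W5.reverse) := by decide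
  rw [e, ew_cons, ew_append, ew_cons, ew_reverse s s_sq] at h
  have h' : s 0 * ew s W5 * s 0 * (ew s W5)⁻¹ = 1 := by
    rw [← h]
    group
  have h2 : s 0 * ew s W5 * s 0 = ew s W5 := mul_inv_eq_one.mp h'
  calc s 0 * ew s W5 = s 0 * ew s W5 * (s 0 * s 0) := by rw [s_sq 0, mul_one]
    _ = (s 0 * ew s W5 * s 0) * s 0 := by group
    _ = ew s W5 * s 0 := by rw [h2]

theorem cube01 : (s 0 * s 1) ^ 3 = 1 := by
  have h := fi_word2 [0, 1, 0, 1, 0, 1] (by decide)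
  rw [← h, ew_cons, ew_cons, ew_cons, ew_cons, ew_cons, ew_cons, ew_nil, mul_one, pow_succ, pow_two]
  group

theorem cube12 : (s 1 * s 2) ^ 3 = 1 := by
  have h := fi_word2 [1, 2, 1, 2, 1, 2] (by decide)
  rw [← h, ew_cons, ew_cons, ew_cons, ew_cons, ew_cons, ew_cons, ew_nil, mul_one, pow_succ, pow_two]
  group

theorem hc : HS ≤ Subgroup.centralizer ({s 0} : Set Fi22) := by
  show Subgroup.map mkF (Subgroup.closure _) ≤ _
  rw [MonoidHom.map_closure, Subgroup.closure_le]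
  rintro _ ⟨r, hr, rfl⟩
  simp only [Set.mem_insert_iff, Set.mem_singleton_iff] at hr
  rw [SetLike.mem_coe, TT.mem_cent]
  rcases hr with rfl | rfl | rfl | rfl | rfl | rfl | rfl | rfl | rfl
  · rw [← s_0]
  · rw [← s_2]; exact comm_k 2 (by decide)
  · rw [← s_3]; exact comm_k 3 (by decide)
  · rw [← s_4]; exact comm_k 4 (by decide)
  · rw [← s_5]; exact comm_k 5 (by decide)
  · rw [← s_6]; exact comm_k 6 (by decide)
  · rw [← s_7]; exact comm_k 7 (by decide)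
  · rw [← s_8]; exact comm_k 8 (by decide)
  · rw [← s_W5]; exact comm_W

theorem he1 : s 2 ∈ conjugatesOf (s 0) := by
  have b1 := TT.braid_conj (s 0) (s 1) (s_sq 0) (s_sq 1) cube01
  have b2 := TT.braid_conj (s 1) (s 2) (s_sq 1) (s_sq 2) cube12
  refine isConj_iff.mpr ⟨s 1 * s 2 * (s 0 * s 1), ?_⟩
  calc (s 1 * s 2 * (s 0 * s 1)) * s 0 * (s 1 * s 2 * (s 0 * s 1))⁻¹
      = (s 1 * s 2) * ((s 0 * s 1) * s 0 * (s 0 * s 1)⁻¹) * (s 1 * s 2)⁻¹ := by group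
    _ = s 2 := by rw [b1, b2]

theorem he2 : s 1 ∈ conjugatesOf (s 0) :=
  isConj_iff.mpr ⟨s 0 * s 1, TT.braid_conj (s 0) (s 1) (s_sq 0) (s_sq 1) cube01⟩

theorem finite22 : Finite Fi22 := by
  apply Nat.finite_of_card_ne_zero
  intro h0
  have h := Cfsg.Agent.S1696.result.2
  rw [h0] at h
  exact absurd h (by norm_num)

/-- the class of 3-transpositions of `Fi₂₂` -/
theorem main : Cfsg.IsThreeTranspositionClass (conjugatesOf (s 0)) ∧
    Nat.card (conjugatesOf (s 0)) = 3510 ∧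
    ∀ d ∈ conjugatesOf (s 0),
      Cfsg.IsNonsplitDoubleCover (Subgroup.centralizer ({d} : Set Fi22)) U6.PSU6 := by
  have hsimp : IsSimpleGroup Fi22 := Cfsg.Agent.S1696.result.1
  have hfin : Finite Fi22 := finite22
  obtain ⟨h1, h2, h3⟩ := TT.main HS 3510 693 2816 Cfsg.Agent.S1687.result.1
    Cfsg.Agent.S1687.result.2 (by norm_num) (by norm_num) (by norm_num) (by norm_num)
    (by norm_num) (by norm_num) (s 0) (s 2) (s 1) (s_sq 0) hc he1 he2 s20
    (TT.sq_of_comm _ _ (s_sq 0) (s_sq 2) (comm_k 2 (by decide))) cube01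
    (TT.sq_ne_of_cube _ _ (s_sq 1) cube01 s01)
  refine ⟨h1, h2, ?_⟩
  intro d hd
  obtain ⟨e⟩ := h3 d hd
  exact DC.nonsplit_of_equiv (U6.eqvH.trans e) U6.card_center U6.quotEquiv U6.PH_perfect

end Cfsg.Agent.Lib.Helper28.TT22
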