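import Mathlib
import Cfsg.Agent.Lib.Helper56.TC
import Cfsg.Agent.Lib.Helper56.Fi22a.Cert

/-!
# Words in the generators of `Fi₂₂` acting trivially on the 3510 cosets (3-transposition data)

Generated file (helper28): `a` commutes with `c, …, i` and with `(abcdeh)^5`; `(ab)^3 = (bc)^3 = 1`.
Letters `0, …, 8` are the generators `a, …, i`.
-/

set_option autoImplicit false
set_option maxRecDepth 1000000

namespace Cfsg.Agent.Lib.Helper28.TT22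

open Cfsg.Agent.Lib.Helper56 Cfsg.Agent.Lib.Helper56.TC Cfsg.Agent.Lib.Helper56.TC.Tabs

/-- the words -/
def trW2 : List (List ℕ) :=
  [[0, 2, 0, 2],
   [0, 3, 0, 3],
   [0, 4, 0, 4],
   [0, 5, 0, 5],
   [0, 6, 0, 6],
   [0, 7, 0, 7],
   [0, 8, 0, 8],
   [0, 0, 1, 2, 3, 4, 7, 0, 1, 2, 3, 4, 7, 0, 1, 2, 3, 4, 7, 0, 1, 2, 3, 4, 7, 0, 1, 2, 3, 4, 7, 0, 7, 4, 3, 2, 1, 0, 7, 4, 3, 2, 1, 0, 7, 4, 3, 2, 1, 0, 7, 4, 3, 2, 1, 0, 7, 4, 3, 2, 1, 0],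
   [0, 1, 0, 1, 0, 1],
   [1, 2, 1, 2, 1, 2]]

/-- the check at the point `v`: every word fixes `v` -/
noncomputable def chkTr2 (v : ℕ) : Bool :=
  allW (fun w => Nat.beq (Fi22a.T.followT w v) v) trW2

end Cfsg.Agent.Lib.Helper28.TT22
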