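import Cfsg.Agent.Lib.Helper56.TC

set_option autoImplicit false
set_option maxRecDepth 1000000

namespace Cfsg.Agent.Lib.Helper28.U6P5

open Cfsg.Agent.Lib.Helper56.TC Cfsg.Agent.Lib.Helper56.TC.Tabs

noncomputable def sA0 : List (List ℕ) := [
[0xfd2989d232a323410234845af8a1d0101810584c6f56c101010424d72d0810081035ca4652810001028672d4c50148101c8417462b084f08]]

noncomputable def sA : List (List (List ℕ)) := [sA0]

noncomputable def nA0 : List (List ℕ) := [
[0x2a02d40ca827506aa10d400]]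

noncomputable def nA : List (List (List ℕ)) := [nA0]

noncomputable def tA0 : List (List ℕ) := [
[0x2db6491d6d468b482249000]]

noncomputable def tA : List (List (List ℕ)) := [tA0]

/-- The certificate data. -/
noncomputable def T : Tabs where
  K := 5
  N := 6
  N' := 6
  INF := 21
  fuel := 1
  inv := fun l => l
  tg := slotFld sA 66 15 32767 5 0 7 (fun _ => 0)
  rk := slotFld sA 66 15 32767 5 3 31
    (fun x => Nat.rec (motive := fun _ => ℕ) 0 (fun _ _ => 21) x)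
  jc := slotFld sA 66 15 32767 5 8 127
    (fun x => Nat.rec (motive := fun _ => ℕ) 3 (fun _ _ => 0) x)
  dd := nameFld nA 66 15 32767 0 7
  dl := nameFld nA 66 15 32767 3 7
  qj := nameFld nA 66 15 32767 6 1
  mp := nameFld nA 66 15 32767 7 7
  mt := nameFld nA 66 15 32767 10 31
  tb := slotFld tA 333 3 7 5 0 7 (fun _ => 0)
  rels1 := [[0, 1, 0, 1, 0, 1],
    [0, 2, 0, 2],
    [0, 3, 0, 3],
    [0, 4, 0, 4],
    [1, 2, 1, 2, 1, 2],
    [1, 3, 1, 3],
    [1, 4, 1, 4],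
    [2, 3, 2, 3, 2, 3],
    [2, 4, 2, 4],
    [3, 4, 3, 4, 3, 4]]
  subs := [[0],
    [1],
    [2],
    [3]]
  rx := [[0, 1, 0, 1, 0, 1],
    [0, 2, 0, 2],
    [0, 3, 0, 3],
    [0, 4, 0, 4],
    [1, 2, 1, 2, 1, 2],
    [1, 3, 1, 3],
    [1, 4, 1, 4],
    [2, 3, 2, 3, 2, 3],
    [2, 4, 2, 4],
    [3, 4, 3, 4, 3, 4],
    [0, 5],
    [1, 6],
    [2, 7],
    [3, 8]]
  RB := 7
  tpl := fun _ => 0
  tdep := fun _ => 0
  ol := fun _ => 0
  oc := fun _ => 0
  op := fun _ => 0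
  odep := fun _ => 0
  orep := fun _ => 0

end Cfsg.Agent.Lib.Helper28.U6P5
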